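import Mathlib
import Cfsg.Prelude.Def_Sporadic_a

/-!
# Strongly regular graphs with parameters (77, 16, 0, 4): definitions and piece statements

TEAM PROJECT S0429 (uniqueness of srg(77,16,0,4)).  Notation for the sketches:
`N(v)` = neighbours of `v`; for non-adjacent `u ≠ v`: `M(u,v) = N(u) ∩ N(v)` (4 vertices),
`W(u,v)` = the 47 vertices `≠ u, v` adjacent to neither, `t(w) = |M(u,v) ∩ N(w)|`,
`Z(u,v) = {w ∈ W : t(w) = 0}` (3 vertices), the LINE `Ln u v = {u, v} ∪ Z(u,v)` (a 5-coclique),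
a PLANE = a coclique with 21 vertices (there are 22 of them; they are the points of S(3,6,22),
the vertices are its blocks).
-/

set_option autoImplicit false
open Finset

namespace Cfsg.Agent.H9.S77
open Classical

universe u
variable {V : Type u} [Fintype V]

/-- The neighbours of a vertex, as a finset. -/
noncomputable def nb (G : SimpleGraph V) (v : V) : Finset V := univ.filter (G.Adj v)

@[simp] lemma mem_nb {G : SimpleGraph V} {v w : V} : w ∈ nb G v ↔ G.Adj v w := by simp [nb]

/-- The hypotheses of a strongly regular graph with parameters (77, 16, 0, 4), instance-free. -/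
structure Hyp (G : SimpleGraph V) : Prop where
  card : Fintype.card V = 77
  deg : ∀ v, (nb G v).card = 16
  tri : ∀ u v w, G.Adj u v → G.Adj u w → G.Adj v w → False
  mu : ∀ u v, u ≠ v → ¬ G.Adj u v → (nb G u ∩ nb G v).card = 4

/-- Distinct and non-adjacent. -/
def NA (G : SimpleGraph V) (u v : V) : Prop := u ≠ v ∧ ¬ G.Adj u v

/-- `W(u,v)`: the vertices other than `u`, `v` adjacent to neither. -/
noncomputable def Wset (G : SimpleGraph V) (u v : V) : Finset V :=
  univ.filter (fun w => w ≠ u ∧ w ≠ v ∧ ¬ G.Adj u w ∧ ¬ G.Adj v w)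

/-- `t(u,v,w)`: the number of common neighbours of `u`, `v`, `w`. -/
noncomputable def tc (G : SimpleGraph V) (u v w : V) : ℕ := (nb G u ∩ nb G v ∩ nb G w).card

/-- `Z(u,v)`: the vertices of `W(u,v)` with no common neighbour with `u` and `v`. -/
noncomputable def Zset (G : SimpleGraph V) (u v : V) : Finset V :=
  (Wset G u v).filter (fun w => tc G u v w = 0)

/-- The line through `u` and `v`. -/
noncomputable def Ln (G : SimpleGraph V) (u v : V) : Finset V := insert u (insert v (Zset G u v))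

def IsCoclique (G : SimpleGraph V) (C : Finset V) : Prop := ∀ x ∈ C, ∀ y ∈ C, ¬ G.Adj x y

/-- A plane: a coclique with 21 vertices. -/
def IsPlane (G : SimpleGraph V) (C : Finset V) : Prop := IsCoclique G C ∧ C.card = 21

/-- The set of all planes. -/
noncomputable def planes (G : SimpleGraph V) : Finset (Finset V) :=
  univ.filter (fun C => IsPlane G C)

/-- The block of a vertex: the set of planes through it. -/
noncomputable def blk (G : SimpleGraph V) (v : V) : Finset (planes G) :=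
  univ.filter (fun C => v ∈ C.1)

/-! ### The statements -/

/-- COUNT.  `|W| = 47`; `∑ t = 56` (each `m ∈ M(u,v)` has 14 neighbours besides `u, v`, all in `W`
since there are no triangles); `∑ t² = 80` (`∑ t(t-1) = 24`: the 12 ordered pairs `m ≠ m'` of
`M(u,v)` are non-adjacent and have 2 common neighbours besides `u, v`, both in `W`). -/
def StCount (G : SimpleGraph V) : Prop :=
  ∀ u v, NA G u v → (Wset G u v).card = 47 ∧ ∑ w ∈ Wset G u v, tc G u v w = 56 ∧
    ∑ w ∈ Wset G u v, tc G u v w ^ 2 = 80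

/-- NBW.  For `w ∈ W`: `w` has 4 neighbours in `N(u)`, 4 in `N(v)`, `t(w)` in both, none equal to
`u, v`, so `8 + t(w)` neighbours in `W`.  And `∑_{x ∈ N(w) ∩ W} t(x) = ∑_{m ∈ M} |N(w) ∩ N(m) ∩ W|`:
for `m ~ w` this is 0 (no triangles), for `m ≁ w` the 4 common neighbours of `w, m` all lie
in `W` (a common neighbour of `m` and `u` would give a triangle; it is not `u`, `v` as `w ≁ u, v`). -/
def StNbW (G : SimpleGraph V) : Prop :=
  ∀ u v, NA G u v → ∀ w ∈ Wset G u v, (nb G w ∩ Wset G u v).card = 8 + tc G u v w ∧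
    ∑ x ∈ nb G w ∩ Wset G u v, tc G u v x = 4 * (4 - tc G u v w)

/-- K33.  With `p_i = #{w ∈ W : t(w) = i}` (`i ≤ 4`): `∑ p_i = 47`, `∑ i p_i = 56`,
`∑ i² p_i = 80` give `p_0 = 3 - p_3 - 3 p_4 ≤ 3`.  If `t(w) ≥ 3` then NBW gives `≥ 11` vertices
`x ∈ N(w) ∩ W` with `∑ t(x) ≤ 4`, so `≥ 7` of them have `t = 0`, contradiction.  Hence `p_3 = p_4 = 0`,
`p_0 = 3`, `p_1 = 32`, `p_2 = 12`. -/
def StK33 (G : SimpleGraph V) : Prop :=
  ∀ u v, NA G u v → (∀ w ∈ Wset G u v, tc G u v w ≤ 2) ∧ (Zset G u v).card = 3 ∧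
    ((Wset G u v).filter (fun w => tc G u v w = 1)).card = 32 ∧
    ((Wset G u v).filter (fun w => tc G u v w = 2)).card = 12

/-- ZNB.  `z ∈ Z` has 8 neighbours in `W` with `∑ t = 16` and each `t ≤ 2`: all have `t = 2`. -/
def StZnb (G : SimpleGraph V) : Prop :=
  ∀ u v, NA G u v → ∀ z ∈ Zset G u v, ∀ w ∈ Wset G u v, G.Adj z w → tc G u v w = 2

/-- ZZ.  `W₂ = {w ∈ W : t(w) = 2}` has 12 elements, `N(z) ∩ W ⊆ W₂` has 8 for `z ∈ Z`.
For `z ≠ z'` in `Z` (non-adjacent by ZNB, so 4 common neighbours): `|N(z) ∩ N(z') ∩ W₂| ≥ 8+8-12 = 4`,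
so all common neighbours lie in `W₂` and `(N(z) ∪ N(z')) ∩ W₂ = W₂`.  The complements in `W₂` of
the `N(z) ∩ W₂` (`z ∈ Z`) are therefore pairwise disjoint 4-sets, so they partition `W₂`: no
vertex is adjacent to all three elements of `Z`. -/
def StZZ (G : SimpleGraph V) : Prop :=
  ∀ u v, NA G u v → ∀ z ∈ Zset G u v, ∀ z' ∈ Zset G u v, z ≠ z' →
    (∀ c, G.Adj z c → G.Adj z' c → c ∈ Wset G u v ∧ tc G u v c = 2) ∧
    (∀ z'' ∈ Zset G u v, z'' ≠ z → z'' ≠ z' → ∀ c, G.Adj z c → G.Adj z' c → ¬ G.Adj z'' c) ∧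
    (∀ w ∈ Wset G u v, tc G u v w = 2 → G.Adj z w ∨ G.Adj z' w)

/-- LINE.  The line is a 5-coclique, no three of its vertices have a common neighbour, and it is
the line through any two of its vertices (the 3 other vertices lie in `Z(s,s')`, which has 3
elements by K33). -/
def StLine (G : SimpleGraph V) : Prop :=
  ∀ u v, NA G u v → (Ln G u v).card = 5 ∧ IsCoclique G (Ln G u v) ∧
    (∀ a ∈ Ln G u v, ∀ b ∈ Ln G u v, ∀ c ∈ Ln G u v, a ≠ b → a ≠ c → b ≠ c →
      ∀ x, G.Adj a x → G.Adj b x → ¬ G.Adj c x) ∧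
    ∀ s ∈ Ln G u v, ∀ s' ∈ Ln G u v, s ≠ s' → Ln G s s' = Ln G u v

/-- TWO.  A vertex off a line has 0 or 2 neighbours on it.  (At most 2 by LINE.  If `y ~ s` only:
pick `s' ≠ s` on the line, which is `Ln s s'`; the three `z ∈ Z(s,s')` have 4 neighbours each in
`N(s) \ N(s')` (12 vertices), pairwise disjoint, so they cover `y`.) -/
def StTwo (G : SimpleGraph V) : Prop :=
  ∀ u v, NA G u v → ∀ y, y ∉ Ln G u v →
    (nb G y ∩ Ln G u v).card = 0 ∨ (nb G y ∩ Ln G u v).card = 2

/-- N0.  For `w ∈ W(u,v)`: `t(w) = 1` iff `w` is off the line and has no neighbour on it.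
(`→`: ZNB.  `←`: `t ≠ 0` as `w ∉ Z`; `t ≠ 2` by the third clause of ZZ; `t ≤ 2` by K33.) -/
def StN0 (G : SimpleGraph V) : Prop :=
  ∀ u v, NA G u v → ∀ w ∈ Wset G u v,
    (tc G u v w = 1 ↔ (w ∉ Ln G u v ∧ ∀ s ∈ Ln G u v, ¬ G.Adj w s))

/-- PERP.  If `o, x, y` are pairwise non-adjacent with exactly one common neighbour, there is no
edge between the lines `Ln o x` and `Ln o y`.
(Step 1: `x` has no neighbour on `L' = Ln o y`: else (TWO) `x ~ y₁, y₂` with
`L' = {o, y, y₁, y₂, y₃}`; each `m ∈ M(o,x)` is adjacent to `o` and (TWO) exactly one more vertex of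
`L'`, not `y₁, y₂` (triangle), so `t(o,x,y) + t(o,x,y₃) = 4`, i.e. `t(o,x,y₃) = 3`, against K33.
Then `∑_{y' ∈ L' \ {o}} t(o,x,y') = 4` with all four terms `≥ 1` (`y' ∉ Ln o x`, as the two lines
are distinct and meet only in `o`), so all are 1.  Step 2: apply step 1 to `(o, y', x)`.) -/
def StPerp (G : SimpleGraph V) : Prop :=
  ∀ o x y, NA G o x → NA G o y → NA G x y → tc G o x y = 1 →
    ∀ x' ∈ Ln G o x, ∀ y' ∈ Ln G o y, ¬ G.Adj x' y'

/-- PLANE.  If `o` is off the line `L` and has no neighbour on it, the union of the lines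
`Ln o z`, `z ∈ L`, is a plane.  (N0 gives `t(z,z',o) = 1`, PERP gives the coclique; the five
lines pairwise meet only in `o` by LINE, so the size is `1 + 5 * 4`.) -/
def StPlane (G : SimpleGraph V) : Prop :=
  ∀ u v, NA G u v → ∀ o, o ∉ Ln G u v → (∀ s ∈ Ln G u v, ¬ G.Adj o s) →
    IsPlane G ((Ln G u v).biUnion (fun z => Ln G o z))

/-- HOFF.  Every vertex outside a plane `C` has exactly 6 neighbours in it.
(`d_v = |N(v) ∩ C|` for the 56 vertices `v ∉ C`: `∑ d_v = 21 * 16`, `∑ d_v (d_v - 1) = 21 * 20 * 4`,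
so `∑ (d_v - 6)² = 0`.) -/
def StHoff (G : SimpleGraph V) : Prop :=
  ∀ C, IsPlane G C → ∀ v, v ∉ C → (nb G v ∩ C).card = 6

/-- SUB.  A plane contains the line through any two of its vertices, and every other vertex of
the plane has exactly one common neighbour with them.
(`∑_{w ∈ C \ {u,v}} t(w) = ∑_{m ∈ M(u,v)} (6 - 2) = 16` over 19 vertices with `t ≤ 2`, at most 3 of
them with `t = 0`: so exactly 3 have `t = 0`, none has `t = 2`.) -/
def StSub (G : SimpleGraph V) : Prop :=
  ∀ C, IsPlane G C → ∀ u ∈ C, ∀ v ∈ C, u ≠ v →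
    Ln G u v ⊆ C ∧ ∀ w ∈ C, w ∉ Ln G u v → tc G u v w = 1

/-- UNIQ.  Two planes sharing three non-collinear vertices are equal.
(Both contain `L = Ln x y` and all lines `Ln o z`, `z ∈ L`, whose union is a plane by PLANE.) -/
def StUniq (G : SimpleGraph V) : Prop :=
  ∀ C C', IsPlane G C → IsPlane G C' → ∀ o x y, o ∈ C → x ∈ C → y ∈ C → o ∈ C' → x ∈ C' → y ∈ C' →
    o ≠ x → y ∉ Ln G o x → C = C'

/-- EX.  Three pairwise non-adjacent vertices with exactly one common neighbour lie in a plane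
(the plane of PLANE for `L = Ln x y` and `o`, using N0). -/
def StEx (G : SimpleGraph V) : Prop :=
  ∀ o x y, NA G o x → NA G o y → NA G x y → tc G o x y = 1 →
    ∃ C, IsPlane G C ∧ o ∈ C ∧ x ∈ C ∧ y ∈ C

/-- SIX.  Every vertex lies in exactly 6 planes.
(Count the pairs `(x, y)` with `o, x, y` pairwise non-adjacent and `t(o,x,y) = 1`: `60 * 32` by K33;
each lies in exactly one plane through `o` (EX, UNIQ); each plane through `o` contains `20 * 16`
of them (SUB, LINE).) -/
def StSix (G : SimpleGraph V) : Prop :=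
  ∀ o, ((planes G).filter (fun C => o ∈ C)).card = 6

/-- PAIR.  Two non-adjacent vertices lie in exactly 2 planes.
(The 32 vertices `y ∈ W(u,v)` with `t = 1` each lie in exactly one plane through `u, v`; each such
plane contains exactly 16 of them.) -/
def StPair (G : SimpleGraph V) : Prop :=
  ∀ u v, NA G u v → ((planes G).filter (fun C => u ∈ C ∧ v ∈ C)).card = 2

/-- N22.  There are 22 planes (`21 * #planes = 77 * 6`). -/
def StN22 (G : SimpleGraph V) : Prop := (planes G).card = 22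

/-- MEET.  Two distinct planes meet in exactly 5 vertices.
(`|C ∩ C'| ∈ {0, 1, 5}` by SUB, UNIQ, LINE; for fixed `C`,
`∑_{C' ≠ C} |C ∩ C'| (|C ∩ C'| - 1) = 21 * 20 * 1` by PAIR, and there are 21 planes `C' ≠ C`.) -/
def StMeet (G : SimpleGraph V) : Prop :=
  ∀ C ∈ planes G, ∀ C' ∈ planes G, C ≠ C' → (C ∩ C').card = 5

/-- THREE.  Three distinct planes have exactly one common vertex.
(`L = C₁ ∩ C₂` has 5 vertices; each of the 20 other planes meets `L` in at most 1 vertex (PAIR);
`∑_{C₃} |L ∩ C₃| = 5 * (6 - 2) = 20` (SIX).) -/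
def StThree (G : SimpleGraph V) : Prop :=
  ∀ C₁ ∈ planes G, ∀ C₂ ∈ planes G, ∀ C₃ ∈ planes G, C₁ ≠ C₂ → C₁ ≠ C₃ → C₂ ≠ C₃ →
    (C₁ ∩ C₂ ∩ C₃).card = 1

/-- STEINER.  The planes are the 22 points and the sets `blk G v` the blocks of an S(3,6,22);
`blk G` is injective and adjacency is disjointness of blocks. -/
def StSteiner (G : SimpleGraph V) : Prop :=
  Fintype.card (planes G) = 22 ∧ IsSteinerSystem 3 6 (Set.range (blk G)) ∧
  Function.Injective (blk G) ∧ ∀ v w, G.Adj v w ↔ (v ≠ w ∧ Disjoint (blk G v) (blk G w))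

/-! ### The pieces (each is proved as `theorem name : PieceXxx.{u}`) -/

def PieceCount : Prop := ∀ {V : Type u} [Fintype V] (G : SimpleGraph V), Hyp G → StCount G

def PieceNbW : Prop := ∀ {V : Type u} [Fintype V] (G : SimpleGraph V), Hyp G → StNbW G

def PieceK33 : Prop := ∀ {V : Type u} [Fintype V] (G : SimpleGraph V), Hyp G →
  StCount G → StNbW G → StK33 G

def PieceZnb : Prop := ∀ {V : Type u} [Fintype V] (G : SimpleGraph V), Hyp G →
  StNbW G → StK33 G → StZnb G

def PieceZZ : Prop := ∀ {V : Type u} [Fintype V] (G : SimpleGraph V), Hyp G →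
  StNbW G → StK33 G → StZnb G → StZZ G

def PieceLine : Prop := ∀ {V : Type u} [Fintype V] (G : SimpleGraph V), Hyp G →
  StK33 G → StZnb G → StZZ G → StLine G

def PieceTwo : Prop := ∀ {V : Type u} [Fintype V] (G : SimpleGraph V), Hyp G →
  StK33 G → StLine G → StTwo G

def PieceN0 : Prop := ∀ {V : Type u} [Fintype V] (G : SimpleGraph V), Hyp G →
  StK33 G → StZnb G → StZZ G → StN0 G

def PiecePerp : Prop := ∀ {V : Type u} [Fintype V] (G : SimpleGraph V), Hyp G →
  StK33 G → StLine G → StTwo G → StPerp G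

def PiecePlane : Prop := ∀ {V : Type u} [Fintype V] (G : SimpleGraph V), Hyp G →
  StLine G → StN0 G → StPerp G → StPlane G

def PieceHoff : Prop := ∀ {V : Type u} [Fintype V] (G : SimpleGraph V), Hyp G → StHoff G

def PieceSub : Prop := ∀ {V : Type u} [Fintype V] (G : SimpleGraph V), Hyp G →
  StK33 G → StHoff G → StSub G

def PieceUniq : Prop := ∀ {V : Type u} [Fintype V] (G : SimpleGraph V), Hyp G →
  StLine G → StPlane G → StSub G → StUniq G

def PieceEx : Prop := ∀ {V : Type u} [Fintype V] (G : SimpleGraph V), Hyp G →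
  StLine G → StN0 G → StPlane G → StEx G

def PieceSix : Prop := ∀ {V : Type u} [Fintype V] (G : SimpleGraph V), Hyp G →
  StK33 G → StLine G → StSub G → StUniq G → StEx G → StSix G

def PiecePair : Prop := ∀ {V : Type u} [Fintype V] (G : SimpleGraph V), Hyp G →
  StK33 G → StLine G → StSub G → StUniq G → StEx G → StPair G

def PieceN22 : Prop := ∀ {V : Type u} [Fintype V] (G : SimpleGraph V), Hyp G →
  StSix G → StN22 G

def PieceMeet : Prop := ∀ {V : Type u} [Fintype V] (G : SimpleGraph V), Hyp G →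
  StLine G → StSub G → StUniq G → StPair G → StN22 G → StMeet G

def PieceThree : Prop := ∀ {V : Type u} [Fintype V] (G : SimpleGraph V), Hyp G →
  StSix G → StPair G → StN22 G → StMeet G → StThree G

def PieceSteiner : Prop := ∀ {V : Type u} [Fintype V] (G : SimpleGraph V), Hyp G →
  StSix G → StPair G → StN22 G → StThree G → StSteiner G

end Cfsg.Agent.H9.S77
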