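import Cfsg.Agent.H9.StcAut

/-!
# Automorphism groups of isomorphic set systems (helper9)
-/

set_option autoImplicit false
set_option linter.unusedSectionVars false

namespace Cfsg.Agent.H9.AutIso

open Cfsg
open scoped Pointwise

section
variable {α β : Type*} [DecidableEq α] [DecidableEq β]

theorem smul_finset_eq_image' (g : Equiv.Perm α) (b : Finset α) : g • b = b.image g := by
  ext a
  simp [Finset.mem_smul_finset]

theorem conj_smul_image (e : α ≃ β) (g : Equiv.Perm α) (b : Finset α) :
    e.permCongr g • b.image e = (g • b).image e := by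
  rw [smul_finset_eq_image', smul_finset_eq_image', Finset.image_image, Finset.image_image]
  apply Finset.image_congr
  intro a _
  simp [Equiv.permCongr_apply]

theorem conj_smul_set (e : α ≃ β) (g : Equiv.Perm α) (B : Set (Finset α)) :
    e.permCongr g • ((fun b : Finset α => b.image e) '' B) =
      (fun b : Finset α => b.image e) '' (g • B) := by
  rw [← Set.image_smul, ← Set.image_smul, Set.image_image, Set.image_image]
  apply Set.image_congr
  intro b _
  exact conj_smul_image e g b

theorem mem_aut_iff_conj (e : α ≃ β) {B : Set (Finset α)} {B' : Set (Finset β)}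
    (h : (fun b : Finset α => b.image e) '' B = B') (g : Equiv.Perm α) :
    g ∈ setSystemAut B ↔ e.permCongr g ∈ setSystemAut B' := by
  rw [MulAction.mem_stabilizer_iff, MulAction.mem_stabilizer_iff, ← h, conj_smul_set]
  constructor
  · intro hg
    rw [hg]
  · intro hg
    exact (Set.image_injective.mpr (Finset.image_injective e.injective)) hg

/-- the automorphism groups of isomorphic set systems are isomorphic -/
noncomputable def autCongr (e : α ≃ β) {B : Set (Finset α)} {B' : Set (Finset β)}
    (h : (fun b : Finset α => b.image e) '' B = B') : setSystemAut B ≃* setSystemAut B' where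
  toFun g := ⟨e.permCongr g.1, (mem_aut_iff_conj e h g.1).mp g.2⟩
  invFun g := ⟨e.symm.permCongr g.1, by
    rw [mem_aut_iff_conj e h]
    have : e.permCongr (e.symm.permCongr g.1) = g.1 := by
      ext x
      simp [Equiv.permCongr_apply]
    rw [this]
    exact g.2⟩
  left_inv g := by
    apply Subtype.ext
    ext x
    simp [Equiv.permCongr_apply]
  right_inv g := by
    apply Subtype.ext
    ext x
    simp [Equiv.permCongr_apply]
  map_mul' g g' := by
    apply Subtype.ext
    ext x
    simp [Equiv.permCongr_apply]

theorem autCongr_apply (e : α ≃ β) {B : Set (Finset α)} {B' : Set (Finset β)}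
    (h : (fun b : Finset α => b.image e) '' B = B') (g : setSystemAut B) (a : α) :
    ((autCongr e h g : setSystemAut B') : Equiv.Perm β) (e a) = e ((g : Equiv.Perm α) a) := by
  show e.permCongr g.1 (e a) = _
  simp [Equiv.permCongr_apply]

theorem autCongr_symm_apply (e : α ≃ β) {B : Set (Finset α)} {B' : Set (Finset β)}
    (h : (fun b : Finset α => b.image e) '' B = B') (g : setSystemAut B') (a : α) :
    (((autCongr e h).symm g : setSystemAut B) : Equiv.Perm α) a =
      e.symm ((g : Equiv.Perm β) (e a)) := by
  show e.symm.permCongr g.1 a = _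
  simp [Equiv.permCongr_apply]

theorem pretransitive_of_iso (e : α ≃ β) {B : Set (Finset α)} {B' : Set (Finset β)}
    (h : (fun b : Finset α => b.image e) '' B = B') (n : ℕ)
    (hn : MulAction.IsMultiplyPretransitive (setSystemAut B') β n) :
    MulAction.IsMultiplyPretransitive (setSystemAut B) α n := by
  rw [MulAction.isMultiplyPretransitive_iff] at hn ⊢
  intro x y
  obtain ⟨g, hg⟩ := hn (x.trans e.toEmbedding) (y.trans e.toEmbedding)
  refine ⟨(autCongr e h).symm g, Function.Embedding.ext fun i => ?_⟩
  have h1 := DFunLike.congr_fun hg i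
  have h2 : (g : Equiv.Perm β) (e (x i)) = e (y i) := h1
  show (((autCongr e h).symm g : setSystemAut B) : Equiv.Perm α) (x i) = y i
  rw [autCongr_symm_apply, h2, Equiv.symm_apply_apply]

end

end Cfsg.Agent.H9.AutIso
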