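import Cfsg.Agent.H9.StgMain
import Cfsg.Agent.H9.StcAut

/-!
# Derived designs, extended numberings and automorphisms (helper9)

`std_ext_agree`: the version of `std_ext` that keeps track of the numbering.
`ofSubtype_mem_aut`: if every standard numbering of the derived design extends to a standard
numbering of the system, then every automorphism of the derived design extends to an automorphism.
`derivedAutEquiv`: the automorphism group of the derived design is then the point stabiliser.
-/

set_option autoImplicit false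
set_option linter.unusedSectionVars false

namespace Cfsg.Agent.H9.Stg

open Cfsg Cfsg.Agent.H9 Cfsg.Agent.H34 Cfsg.Agent.H9.Stc
open scoped Pointwise

section
variable {α : Type*} [Fintype α] [DecidableEq α]

/-- the derived design at `p` -/
def derived (B : Set (Finset α)) (p : α) : Set (Finset {a : α // a ≠ p}) :=
  {b' | ∃ b ∈ B, p ∈ b ∧ b' = Finset.subtype (fun a => a ≠ p) b}

theorem derived_steiner {t k : ℕ} {B : Set (Finset α)} (hB : IsSteinerSystem (t + 1) (k + 1) B)
    (p : α) : IsSteinerSystem t k (derived B p) :=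
  Cfsg.Agent.H8.steiner_derived hB p

/-- the numbering extending `e₀` by `p ↦ v` -/
def extNum {v : ℕ} (p : α) (e₀ : {a : α // a ≠ p} ≃ Fin v) : α ≃ Fin (v + 1) :=
  (Equiv.optionSubtypeNe p).symm.trans
    ((Equiv.optionCongr e₀).trans (finSuccEquivLast (n := v)).symm)

theorem extNum_self {v : ℕ} (p : α) (e₀ : {a : α // a ≠ p} ≃ Fin v) :
    extNum p e₀ p = Fin.last v := by
  show (finSuccEquivLast (n := v)).symm
    ((Equiv.optionCongr e₀) ((Equiv.optionSubtypeNe p).symm p)) = _
  rw [Equiv.optionSubtypeNe_symm_self]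
  rfl

theorem extNum_of_ne {v : ℕ} (p : α) (e₀ : {a : α // a ≠ p} ≃ Fin v) {a : α} (h : a ≠ p) :
    extNum p e₀ a = (e₀ ⟨a, h⟩).castSucc := by
  show (finSuccEquivLast (n := v)).symm
    ((Equiv.optionCongr e₀) ((Equiv.optionSubtypeNe p).symm a)) = _
  rw [Equiv.optionSubtypeNe_symm_of_ne h]
  exact finSuccEquivLast_symm_some _

/-- `std_ext`, keeping track of the numbering -/
theorem std_ext_agree {W v t k k0 N : ℕ} {B0L prevL certs : List ℕ} {todo : List (List ℕ)}
    (hsearch : (srchInit W (v + 1) (t + 1) (k + 1) k0 N B0L todo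
      (prevL.map (fun m => Nat.lor m (Nat.shiftLeft 1 v))) 0 certs).isSome = true)
    (hW : 0 < W) (htk : t ≤ k) (hv : v + 1 ≤ 32)
    (hWl : prevL.length + todo.length + 32 ≤ W) (hlen : B0L.length = N)
    (hN : N * Nat.choose (k + 1) (t + 1) = Nat.choose (v + 1) (t + 1))
    (htodo : todo.all (ptsOK (v + 1) (t + 1)) = true)
    (hbl0 : decr (Nat.shiftLeft 1 (v + 1))
      (prevL.map (fun m => Nat.lor m (Nat.shiftLeft 1 v))) = true)
    (hprevlt : prevL.all (fun m => Nat.blt m (Nat.shiftLeft 1 v)) = true)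
    {B : Set (Finset α)} (hB : IsSteinerSystem (t + 1) (k + 1) B) (p : α)
    (e₀ : {a : α // a ≠ p} ≃ Fin v)
    (he₀ : ∀ b', b' ∈ derived B p ↔ toMask e₀ b' ∈ prevL) :
    ∃ e' : α ≃ Fin (v + 1), agree k0 (extNum p e₀) e' ∧
      ∀ b : Finset α, b ∈ B ↔ toMask e' b ∈ B0L := by
  have hep := extNum_self p e₀
  have hea : ∀ (a : α) (h : a ≠ p), extNum p e₀ a = (e₀ ⟨a, h⟩).castSucc :=
    fun a h => extNum_of_ne p e₀ h
  have hprevlt' : ∀ m ∈ prevL, m < 2 ^ v := by
    intro m hm
    have := List.all_eq_true.mp hprevlt m hm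
    rw [shl_one] at this
    simpa [Nat.blt_eq] using this
  have he : ∀ m ∈ prevL.map (fun m => Nat.lor m (Nat.shiftLeft 1 v)),
      ofMask (extNum p e₀) m ∈ B := by
    intro m hm
    obtain ⟨m', hm', rfl⟩ := List.mem_map.mp hm
    have hm'lt := hprevlt' m' hm'
    have h1 : toMask e₀ (ofMask e₀ m') = m' := by
      apply ofMask_inj e₀ (toMask_lt e₀ _) hm'lt
      rw [ofMask_toMask]
    have h2 := (he₀ (ofMask e₀ m')).mpr (by rw [h1]; exact hm')
    obtain ⟨b, hbB, hpb, hbeq⟩ := h2
    have h3 : ofMask (extNum p e₀) (Nat.lor m' (Nat.shiftLeft 1 v)) = b := by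
      ext a
      rw [mem_ofMask, shl_one]
      show (m' ||| 2 ^ v).testBit (extNum p e₀ a) = true ↔ _
      rw [Nat.testBit_or, Nat.testBit_two_pow, Bool.or_eq_true, decide_eq_true_eq]
      by_cases ha : a = p
      · rw [ha, hep]
        simp [hpb]
      · rw [hea a ha]
        have h4 : (⟨a, ha⟩ : {a : α // a ≠ p}) ∈ ofMask e₀ m' ↔ a ∈ b := by
          rw [hbeq, Finset.mem_subtype]
        rw [mem_ofMask] at h4
        have h5 : v ≠ ((e₀ ⟨a, ha⟩).castSucc : Fin (v + 1)).val := by
          have := (e₀ ⟨a, ha⟩).isLt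
          simp only [Fin.val_castSucc]
          omega
        simp only [Fin.val_castSucc] at h5 ⊢
        rw [← h4]
        constructor
        · rintro (h | h)
          · exact h
          · exact absurd h h5
        · intro h
          exact Or.inl h
    rw [h3]
    exact hbB
  have hWl' : (prevL.map (fun m => Nat.lor m (Nat.shiftLeft 1 v))).length + todo.length + 32
      ≤ W := by
    rw [List.length_map]
    exact hWl
  exact std_of_search (k0 := k0) (nb0 := 0) hsearch hW (Nat.succ_pos t)
    (Nat.succ_le_succ htk) hv hWl' hlen hN htodo hbl0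
    (List.all_eq_true.mpr (fun m _ => by rw [splitC_zero]; rfl)) (Nat.two_pow_pos _) hB
    (extNum p e₀) he

/-- when the search fixes all labels, the extended numbering itself is standard -/
theorem std_ext_fix {W v t k N : ℕ} {B0L prevL certs : List ℕ} {todo : List (List ℕ)}
    (hsearch : (srchInit W (v + 1) (t + 1) (k + 1) (v + 1) N B0L todo
      (prevL.map (fun m => Nat.lor m (Nat.shiftLeft 1 v))) 0 certs).isSome = true)
    (hW : 0 < W) (htk : t ≤ k) (hv : v + 1 ≤ 32)
    (hWl : prevL.length + todo.length + 32 ≤ W) (hlen : B0L.length = N)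
    (hN : N * Nat.choose (k + 1) (t + 1) = Nat.choose (v + 1) (t + 1))
    (htodo : todo.all (ptsOK (v + 1) (t + 1)) = true)
    (hbl0 : decr (Nat.shiftLeft 1 (v + 1))
      (prevL.map (fun m => Nat.lor m (Nat.shiftLeft 1 v))) = true)
    (hprevlt : prevL.all (fun m => Nat.blt m (Nat.shiftLeft 1 v)) = true)
    {B : Set (Finset α)} (hB : IsSteinerSystem (t + 1) (k + 1) B) (p : α)
    (e₀ : {a : α // a ≠ p} ≃ Fin v)
    (he₀ : ∀ b', b' ∈ derived B p ↔ toMask e₀ b' ∈ prevL) :
    ∀ b : Finset α, b ∈ B ↔ toMask (extNum p e₀) b ∈ B0L := by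
  obtain ⟨e', hag, he'⟩ := std_ext_agree hsearch hW htk hv hWl hlen hN htodo hbl0 hprevlt hB p
    e₀ he₀
  have : e' = extNum p e₀ := by
    apply Equiv.ext
    intro a
    exact hag a (by omega)
  rw [← this]
  exact he'

/-- composing a standard numbering with an automorphism gives a standard numbering -/
theorem std_trans_aut {β : Type*} [Fintype β] [DecidableEq β] {v : ℕ} {L : List ℕ}
    {D : Set (Finset β)} (e₀ : β ≃ Fin v) (he₀ : ∀ b', b' ∈ D ↔ toMask e₀ b' ∈ L)
    (g : Equiv.Perm β) (hg : g ∈ setSystemAut D) :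
    ∀ b', b' ∈ D ↔ toMask (g.trans e₀) b' ∈ L := by
  intro b'
  have h1 : toMask (g.trans e₀) b' = toMask e₀ (b'.image g) := by
    have := toMask_image_trans (g.trans e₀) e₀ b'
    rw [← this]
    congr 1
    apply Finset.image_congr
    intro a _
    simp
  rw [h1, ← he₀, ← smul_finset_eq_image]
  have hgD : g • D = D := MulAction.mem_stabilizer_iff.mp hg
  constructor
  · intro h
    rw [← hgD]
    exact Set.smul_mem_smul_set h
  · intro h
    rw [← hgD] at h
    exact (Set.smul_mem_smul_set_iff).mp h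

/-- extension of automorphisms of the derived design -/
theorem ofSubtype_mem_aut {v : ℕ} {B0L prevL : List ℕ} {B : Set (Finset α)} {p : α}
    (hfix : ∀ e₀ : {a : α // a ≠ p} ≃ Fin v,
      (∀ b', b' ∈ derived B p ↔ toMask e₀ b' ∈ prevL) →
      ∀ b : Finset α, b ∈ B ↔ toMask (extNum p e₀) b ∈ B0L)
    (e₀ : {a : α // a ≠ p} ≃ Fin v) (he₀ : ∀ b', b' ∈ derived B p ↔ toMask e₀ b' ∈ prevL)
    (g : Equiv.Perm {a : α // a ≠ p}) (hg : g ∈ setSystemAut (derived B p)) :
    Equiv.Perm.ofSubtype g ∈ setSystemAut B := by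
  have he₁ := std_trans_aut e₀ he₀ g hg
  have h2 := mem_aut_of_std (extNum p (g.trans e₀)) (extNum p e₀) (hfix _ he₁) (hfix _ he₀)
  have h3 : (extNum p (g.trans e₀)).trans (extNum p e₀).symm = Equiv.Perm.ofSubtype g := by
    apply Equiv.ext
    intro a
    rw [Equiv.trans_apply, Equiv.symm_apply_eq]
    by_cases ha : a = p
    · rw [ha, extNum_self, Equiv.Perm.ofSubtype_apply_of_not_mem g (by simp), extNum_self]
    · rw [extNum_of_ne _ _ ha, Equiv.Perm.ofSubtype_apply_of_mem g ha,
        extNum_of_ne _ _ (g ⟨a, ha⟩).2]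
      rfl
  rw [← h3]
  exact h2

theorem fix_iff (h : Equiv.Perm α) {p : α} (hp : h p = p) (x : α) : h x ≠ p ↔ x ≠ p := by
  constructor
  · intro h1 h2
    rw [h2] at h1
    exact h1 hp
  · intro h1 h2
    rw [← hp] at h2
    exact h1 (h.injective h2)

/-- restriction of automorphisms fixing `p` to the derived design -/
theorem subtypePerm_mem_aut {B : Set (Finset α)} {p : α} (h : Equiv.Perm α)
    (hh : h ∈ setSystemAut B) (hp : h p = p) :
    h.subtypePerm (fix_iff h hp) ∈ setSystemAut (derived B p) := by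
  rw [MulAction.mem_stabilizer_set' (Set.toFinite _)]
  rintro b' ⟨b, hb, hpb, rfl⟩
  have hhB : h • B = B := MulAction.mem_stabilizer_iff.mp hh
  refine ⟨h • b, ?_, ?_, ?_⟩
  · rw [← hhB]
    exact Set.smul_mem_smul_set hb
  · have := Finset.smul_mem_smul_finset (a := h) hpb
    rw [Equiv.Perm.smul_def, hp] at this
    exact this
  · rw [smul_finset_eq_image, smul_finset_eq_image]
    ext x
    rw [Finset.mem_image, Finset.mem_subtype, Finset.mem_image]
    constructor
    · rintro ⟨y, hy, rfl⟩
      rw [Finset.mem_subtype] at hy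
      exact ⟨y.val, hy, rfl⟩
    · rintro ⟨z, hz, hzx⟩
      have hzp : z ≠ p := by
        rw [← fix_iff h hp, hzx]
        exact x.2
      refine ⟨⟨z, hzp⟩, ?_, Subtype.ext hzx⟩
      rw [Finset.mem_subtype]
      exact hz

/-- the automorphism group of the derived design is the point stabiliser, when automorphisms
extend -/
noncomputable def derivedAutEquiv {B : Set (Finset α)} {p : α}
    (hE : ∀ g ∈ setSystemAut (derived B p), Equiv.Perm.ofSubtype g ∈ setSystemAut B) :
    setSystemAut (derived B p) ≃* MulAction.stabilizer (setSystemAut B) p where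
  toFun g := ⟨⟨Equiv.Perm.ofSubtype g.1, hE g.1 g.2⟩,
    MulAction.mem_stabilizer_iff.mpr (Equiv.Perm.ofSubtype_apply_of_not_mem g.1 (by simp))⟩
  invFun h := ⟨h.1.1.subtypePerm (fix_iff h.1.1 (MulAction.mem_stabilizer_iff.mp h.2)),
    subtypePerm_mem_aut h.1.1 h.1.2 (MulAction.mem_stabilizer_iff.mp h.2)⟩
  left_inv g := Subtype.ext (Equiv.Perm.subtypePerm_ofSubtype g.1)
  right_inv h := Subtype.ext (Subtype.ext (Equiv.Perm.ofSubtype_subtypePerm
    (fix_iff h.1.1 (MulAction.mem_stabilizer_iff.mp h.2)) (fun x hx hxp => by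
      apply hx
      rw [hxp]
      exact MulAction.mem_stabilizer_iff.mp h.2)))
  map_mul' g g' := Subtype.ext (Subtype.ext (map_mul Equiv.Perm.ofSubtype g.1 g'.1))

/-- transitivity of the automorphism group of the derived design -/
theorem derived_pretransitive {B : Set (Finset α)} {p : α} (n : ℕ)
    (hn : MulAction.IsMultiplyPretransitive (setSystemAut B) α (n + 1)) :
    MulAction.IsMultiplyPretransitive (setSystemAut (derived B p)) {a : α // a ≠ p} n := by
  rw [MulAction.isMultiplyPretransitive_iff] at hn ⊢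
  intro x y
  let x' : Fin (n + 1) ↪ α := ⟨Fin.cons p (fun i => (x i).val), Fin.cons_injective_iff.mpr
    ⟨by rintro ⟨i, hi⟩; exact (x i).2 hi, fun i j hij => x.injective (Subtype.ext hij)⟩⟩
  let y' : Fin (n + 1) ↪ α := ⟨Fin.cons p (fun i => (y i).val), Fin.cons_injective_iff.mpr
    ⟨by rintro ⟨i, hi⟩; exact (y i).2 hi, fun i j hij => y.injective (Subtype.ext hij)⟩⟩
  obtain ⟨g, hg⟩ := hn x' y'
  have hgp : (g : Equiv.Perm α) p = p := by
    have := DFunLike.congr_fun hg 0
    exact this
  have hgx : ∀ i, (g : Equiv.Perm α) (x i).val = (y i).val := fun i => by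
    have := DFunLike.congr_fun hg i.succ
    exact this
  refine ⟨⟨g.1.subtypePerm (fix_iff g.1 hgp), subtypePerm_mem_aut g.1 g.2 hgp⟩,
    Function.Embedding.ext fun i => Subtype.ext ?_⟩
  exact hgx i

end

end Cfsg.Agent.H9.Stg
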