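import Cfsg.Agent.H9.Stg24
import Cfsg.Agent.H9.StgExt

/-! The extension `S(4, 7, 23) → S(5, 8, 24)` is unique on the nose: every standard numbering of
the derived design extends to a standard numbering (helper9). -/

set_option autoImplicit false

namespace Cfsg.Agent.H9.Stg

open Cfsg Cfsg.Agent.H9 Cfsg.Agent.H34 Cfsg.Agent.H9.Stc

set_option maxRecDepth 100000 in
theorem w24_search_fix :
    (srchInit 1024 (23 + 1) (4 + 1) (7 + 1) (23 + 1) 759 w24L w24Todo
      (w23L.map (fun m => Nat.lor m (Nat.shiftLeft 1 23))) 0 [0xbdab49ca307b9ac5a928398a418820]).isSome = true := by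
  decide +kernel

/-- every standard numbering of the derived design of an `S(5, 8, 24)` extends to a standard
numbering -/
theorem w24_fix {α : Type*} [Fintype α] [DecidableEq α] {B : Set (Finset α)}
    (hB : IsSteinerSystem 5 8 B) (p : α) (e₀ : {a : α // a ≠ p} ≃ Fin 23)
    (he₀ : ∀ b', b' ∈ derived B p ↔ toMask e₀ b' ∈ w23L) :
    ∀ b : Finset α, b ∈ B ↔ toMask (extNum p e₀) b ∈ w24L :=
  std_ext_fix w24_search_fix (by norm_num) (by norm_num) (by norm_num) (by decide +kernel)
    (by decide +kernel) (by decide +kernel) w24_todo w24_bl0 w24_prevlt hB p e₀ he₀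

/-- automorphisms of the derived design of an `S(5, 8, 24)` extend -/
theorem w24_aut_ext {α : Type*} [Fintype α] [DecidableEq α] (hα : Fintype.card α = 24)
    {B : Set (Finset α)} (hB : IsSteinerSystem 5 8 B) (p : α)
    (g : Equiv.Perm {a : α // a ≠ p}) (hg : g ∈ setSystemAut (derived B p)) :
    Equiv.Perm.ofSubtype g ∈ setSystemAut B := by
  obtain ⟨e₀, he₀⟩ := w23_std (card_subtype_ne_24 hα p) (derived_steiner hB p)
  exact ofSubtype_mem_aut (fun e₀ he₀ => w24_fix hB p e₀ he₀) e₀ he₀ g hg

end Cfsg.Agent.H9.Stg
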