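import Cfsg.Agent.H9.Stg23b
import Cfsg.Agent.H9.Stg24b
import Cfsg.Agent.H9.AutIso

/-!
# The automorphism group of `S(3, 6, 22)` (helper9)

For an `S(4, 7, 23)` `X` and a point `q`, the automorphisms of the derived design that extend to
automorphisms of `X` form a subgroup of index `2`, isomorphic to the stabiliser of `q`.
-/

set_option autoImplicit false
set_option linter.unusedSectionVars false

namespace Cfsg.Agent.H9.Stg

open Cfsg Cfsg.Agent.H9 Cfsg.Agent.H34 Cfsg.Agent.H9.Stc
open scoped Pointwise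

/-- stabilisers correspond under a group isomorphism compatible with the actions -/
def stabEquiv {G₁ G₂ α₁ α₂ : Type*} [Group G₁] [Group G₂] [MulAction G₁ α₁] [MulAction G₂ α₂]
    (ψ : G₁ ≃* G₂) (a₁ : α₁) (a₂ : α₂) (h : ∀ g : G₁, g • a₁ = a₁ ↔ ψ g • a₂ = a₂) :
    MulAction.stabilizer G₁ a₁ ≃* MulAction.stabilizer G₂ a₂ where
  toFun g := ⟨ψ g.1, MulAction.mem_stabilizer_iff.mpr
    ((h g.1).mp (MulAction.mem_stabilizer_iff.mp g.2))⟩
  invFun k := ⟨ψ.symm k.1, by
    rw [MulAction.mem_stabilizer_iff, h, ψ.apply_symm_apply]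
    exact MulAction.mem_stabilizer_iff.mp k.2⟩
  left_inv g := Subtype.ext (ψ.symm_apply_apply g.1)
  right_inv k := Subtype.ext (ψ.apply_symm_apply k.1)
  map_mul' g g' := Subtype.ext (map_mul ψ g.1 g'.1)

/-- the stabiliser of a point in a point stabiliser -/
def stabStabEquiv (G : Type*) {β : Type*} [Group G] [MulAction G β] (p q : β) :
    MulAction.stabilizer (MulAction.stabilizer G p) q ≃*
      ↥(MulAction.stabilizer G p ⊓ MulAction.stabilizer G q) where
  toFun h := ⟨h.1.1, ⟨h.1.2, MulAction.mem_stabilizer_iff.mpr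
    (MulAction.mem_stabilizer_iff.mp h.2)⟩⟩
  invFun k := ⟨⟨k.1, k.2.1⟩, MulAction.mem_stabilizer_iff.mpr
    (MulAction.mem_stabilizer_iff.mp k.2.2)⟩
  left_inv _ := rfl
  right_inv _ := rfl
  map_mul' _ _ := rfl

section
variable {α : Type*} [Fintype α] [DecidableEq α]

theorem extNum_trans {v : ℕ} (p : α) (e₀ : {a : α // a ≠ p} ≃ Fin v)
    (g : Equiv.Perm {a : α // a ≠ p}) :
    extNum p (g.trans e₀) = (Equiv.Perm.ofSubtype g).trans (extNum p e₀) := by
  apply Equiv.ext
  intro a
  rw [Equiv.trans_apply]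
  by_cases ha : a = p
  · rw [ha, extNum_self, Equiv.Perm.ofSubtype_apply_of_not_mem g (by simp), extNum_self]
  · rw [extNum_of_ne _ _ ha, Equiv.Perm.ofSubtype_apply_of_mem g ha,
      extNum_of_ne _ _ (g ⟨a, ha⟩).2]
    rfl

/-- the automorphisms of the derived design that extend -/
def extSub (X : Set (Finset α)) (q : α) : Subgroup (setSystemAut (derived X q)) :=
  (setSystemAut X).comap (Equiv.Perm.ofSubtype.comp (setSystemAut (derived X q)).subtype)

theorem mem_extSub {X : Set (Finset α)} {q : α} (g : setSystemAut (derived X q)) :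
    g ∈ extSub X q ↔ Equiv.Perm.ofSubtype g.1 ∈ setSystemAut X := Iff.rfl

theorem ne_of_moved {q : α} (h : Equiv.Perm α) (hq : h q = q) (x : α) (hx : h x ≠ x) : x ≠ q := by
  intro hxp
  apply hx
  rw [hxp]
  exact hq

/-- the extending automorphisms form the point stabiliser -/
noncomputable def extSubEquiv (X : Set (Finset α)) (q : α) :
    extSub X q ≃* MulAction.stabilizer (setSystemAut X) q where
  toFun g := ⟨⟨Equiv.Perm.ofSubtype g.1.1, g.2⟩,
    MulAction.mem_stabilizer_iff.mpr (Equiv.Perm.ofSubtype_apply_of_not_mem g.1.1 (by simp))⟩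
  invFun h := ⟨⟨h.1.1.subtypePerm (fix_iff h.1.1 (MulAction.mem_stabilizer_iff.mp h.2)),
    subtypePerm_mem_aut h.1.1 h.1.2 (MulAction.mem_stabilizer_iff.mp h.2)⟩, by
      rw [mem_extSub]
      have : Equiv.Perm.ofSubtype (h.1.1.subtypePerm
          (fix_iff h.1.1 (MulAction.mem_stabilizer_iff.mp h.2))) = h.1.1 :=
        Equiv.Perm.ofSubtype_subtypePerm
          (fix_iff h.1.1 (MulAction.mem_stabilizer_iff.mp h.2))
          (ne_of_moved h.1.1 (MulAction.mem_stabilizer_iff.mp h.2))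
      rw [this]
      exact h.1.2⟩
  left_inv g := Subtype.ext (Subtype.ext (Equiv.Perm.subtypePerm_ofSubtype g.1.1))
  right_inv h := Subtype.ext (Subtype.ext (Equiv.Perm.ofSubtype_subtypePerm
    (fix_iff h.1.1 (MulAction.mem_stabilizer_iff.mp h.2))
    (ne_of_moved h.1.1 (MulAction.mem_stabilizer_iff.mp h.2))))
  map_mul' g g' := Subtype.ext (Subtype.ext (map_mul Equiv.Perm.ofSubtype g.1.1 g'.1.1))

set_option maxHeartbeats 400000 in
theorem w23_excl {X : Set (Finset α)} (E' : α ≃ Fin 23)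
    (hA : ∀ b, b ∈ X ↔ toMask E' b ∈ w23aL) (hB : ∀ b, b ∈ X ↔ toMask E' b ∈ w23L) : False := by
  have hlt : (3703361 : ℕ) < 2 ^ 23 := by norm_num
  have h1 : ofMask E' 3703361 ∈ X := by
    rw [hA, toMask_ofMask E' hlt]
    exact (memB_iff _ _).mp w23_b1_mem
  have h2 := (hB _).mp h1
  rw [toMask_ofMask E' hlt] at h2
  have h3 := (memB_iff _ _).mpr h2
  rw [w23_b1_not_mem] at h3
  exact absurd h3 (by simp)

set_option maxHeartbeats 400000 in
theorem same_type {v : ℕ} {X : Set (Finset α)} {q : α} (E : α ≃ Fin v)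
    (g g' : Equiv.Perm {a : α // a ≠ q}) (L : List ℕ)
    (h1 : ∀ b, b ∈ X ↔ toMask ((Equiv.Perm.ofSubtype g).trans E) b ∈ L)
    (h2 : ∀ b, b ∈ X ↔ toMask ((Equiv.Perm.ofSubtype g').trans E) b ∈ L) :
    Equiv.Perm.ofSubtype (g'⁻¹ * g) ∈ setSystemAut X := by
  have h3 := mem_aut_of_std _ _ h1 h2
  have h4 : ((Equiv.Perm.ofSubtype g).trans E).trans ((Equiv.Perm.ofSubtype g').trans E).symm
      = Equiv.Perm.ofSubtype (g'⁻¹ * g) := by
    apply Equiv.ext
    intro x
    show ((Equiv.Perm.ofSubtype g').trans E).symm (E (Equiv.Perm.ofSubtype g x)) = _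
    rw [Equiv.symm_trans_apply, Equiv.symm_apply_apply, map_mul, map_inv,
      Equiv.Perm.mul_apply]
    rfl
  rw [← h4]
  exact h3

theorem w22_len : w22L.length = 77 := by decide +kernel

theorem w23_len : w23L.length = 253 := by decide +kernel

theorem w23a_len : w23aL.length = 253 := by decide +kernel

set_option maxHeartbeats 400000 in
/-- an automorphism of the derived design whose extension swaps the two types -/
theorem exists_swap (hα : Fintype.card α = 23) {X : Set (Finset α)}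
    (hX : IsSteinerSystem 4 7 X) (q : α) (e₀ : {a : α // a ≠ q} ≃ Fin 22)
    (he₀ : ∀ b', b' ∈ derived X q ↔ toMask e₀ b' ∈ w22L) :
    ∃ g₀ ∈ setSystemAut (derived X q),
      ((∀ b, b ∈ X ↔ toMask (extNum q e₀) b ∈ w23aL) →
        (∀ b, b ∈ X ↔ toMask ((Equiv.Perm.ofSubtype g₀).trans (extNum q e₀)) b ∈ w23L)) ∧
      ((∀ b, b ∈ X ↔ toMask (extNum q e₀) b ∈ w23L) →
        (∀ b, b ∈ X ↔ toMask ((Equiv.Perm.ofSubtype g₀).trans (extNum q e₀)) b ∈ w23aL)) := by
  have hD := derived_steiner hX q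
  have hcard' : Fintype.card {a : α // a ≠ q} = 22 := card_subtype_ne_23 hα q
  obtain ⟨σ, hσ⟩ := exists_perm_of_permOK 23 w23sw w23sw_perm
  obtain ⟨σ₂, hσ₂⟩ := exists_perm_of_permOK 22 w23sw w23sw_perm22
  obtain ⟨g₀, hg₀def⟩ : ∃ g₀ : Equiv.Perm {a : α // a ≠ q}, g₀ = (e₀.trans σ₂).trans e₀.symm :=
    ⟨_, rfl⟩
  have hg₀e : g₀.trans e₀ = e₀.trans σ₂ := by
    rw [hg₀def]
    apply Equiv.ext
    intro x
    simp
  have hDcard : (derived X q).ncard = 77 := by
    have h := Cfsg.Agent.H8.steiner_card hD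
    rw [hcard'] at h
    have h1 : Nat.choose 6 3 = 20 := by decide +kernel
    have h2 : Nat.choose 22 3 = 1540 := by decide +kernel
    rw [h1, h2] at h
    omega
  have hXcard : X.ncard = 253 := by
    have h := Cfsg.Agent.H8.steiner_card hX
    rw [hα] at h
    have h1 : Nat.choose 7 4 = 35 := by decide +kernel
    have h2 : Nat.choose 23 4 = 8855 := by decide +kernel
    rw [h1, h2] at h
    omega
  have hstd₂ : ∀ b', b' ∈ derived X q ↔ toMask (e₀.trans σ₂) b' ∈ w22L := by
    apply std_of_fwd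
    · intro b' hb'
      rw [toMask_trans_perm e₀ σ₂ w23sw hσ₂]
      exact (memB_iff _ _).mp (List.all_eq_true.mp w23sw_22 _ ((he₀ b').mp hb'))
    · rw [hDcard, w22_len]
  have hg₀ : g₀ ∈ setSystemAut (derived X q) := by
    rw [hg₀def]
    exact mem_aut_of_std (e₀.trans σ₂) e₀ hstd₂ he₀
  have hEg₀ : (Equiv.Perm.ofSubtype g₀).trans (extNum q e₀) = (extNum q e₀).trans σ := by
    rw [← extNum_trans, hg₀e]
    apply Equiv.ext
    intro a
    rw [Equiv.trans_apply]
    apply Fin.ext
    by_cases ha : a = q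
    · rw [ha, extNum_self, extNum_self, hσ]
      exact w23sw_fix.symm
    · rw [extNum_of_ne _ _ ha, extNum_of_ne _ _ ha, hσ]
      exact hσ₂ _
  refine ⟨g₀, hg₀, ?_, ?_⟩
  · intro hA
    rw [hEg₀]
    apply std_of_fwd
    · intro b hb
      rw [toMask_trans_perm (extNum q e₀) σ w23sw hσ]
      exact (memB_iff _ _).mp (List.all_eq_true.mp w23sw_ab _ ((hA b).mp hb))
    · rw [hXcard, w23_len]
  · intro hB
    rw [hEg₀]
    apply std_of_fwd
    · intro b hb
      rw [toMask_trans_perm (extNum q e₀) σ w23sw hσ]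
      exact (memB_iff _ _).mp (List.all_eq_true.mp w23sw_ba _ ((hB b).mp hb))
    · rw [hXcard, w23a_len]

set_option maxHeartbeats 400000 in
/-- the extending automorphisms have index `2` -/
theorem extSub_index (hα : Fintype.card α = 23) {X : Set (Finset α)}
    (hX : IsSteinerSystem 4 7 X) (q : α) : (extSub X q).index = 2 := by
  classical
  have hD := derived_steiner hX q
  have hcard' : Fintype.card {a : α // a ≠ q} = 22 := card_subtype_ne_23 hα q
  obtain ⟨e₀, he₀⟩ := w22_std hcard' hD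
  obtain ⟨g₀, hg₀, hflipA, hflipB⟩ := exists_swap hα hX q e₀ he₀
  obtain ⟨E, hE⟩ : ∃ E, E = extNum q e₀ := ⟨_, rfl⟩
  rw [← hE] at hflipA hflipB
  have hdich : ∀ g ∈ setSystemAut (derived X q),
      (∀ b, b ∈ X ↔ toMask ((Equiv.Perm.ofSubtype g).trans E) b ∈ w23aL) ∨
      (∀ b, b ∈ X ↔ toMask ((Equiv.Perm.ofSubtype g).trans E) b ∈ w23L) := by
    intro g hg
    have := w23_dich hX q (g.trans e₀) (std_trans_aut e₀ he₀ g hg)
    rw [extNum_trans, ← hE] at this
    exact this
  have hE1 : (Equiv.Perm.ofSubtype (1 : Equiv.Perm {a : α // a ≠ q})).trans E = E := by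
    rw [map_one]
    apply Equiv.ext
    intro x
    rfl
  have hd1 := hdich 1 (Subgroup.one_mem _)
  rw [hE1] at hd1
  have hg₀K : Equiv.Perm.ofSubtype g₀ ∉ setSystemAut X := by
    intro hmem
    rcases hd1 with hA | hB
    · exact w23_excl _ (std_trans_aut E hA (Equiv.Perm.ofSubtype g₀) hmem) (hflipA hA)
    · exact w23_excl _ (hflipB hB) (std_trans_aut E hB (Equiv.Perm.ofSubtype g₀) hmem)
  rw [Subgroup.index_eq_two_iff']
  refine ⟨(⟨g₀, hg₀⟩ : setSystemAut (derived X q))⁻¹, fun b => ?_⟩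
  by_cases hb : b ∈ extSub X q
  · refine Or.inr ⟨hb, fun h => ?_⟩
    have h1 := Subgroup.mul_mem _ h (Subgroup.inv_mem _ hb)
    rw [mul_inv_cancel_right] at h1
    have h2 : (⟨g₀, hg₀⟩ : setSystemAut (derived X q)) ∈ extSub X q :=
      (Subgroup.inv_mem_iff _).mp h1
    exact hg₀K h2
  · refine Or.inl ⟨?_, hb⟩
    have hb' : Equiv.Perm.ofSubtype b.1 ∉ setSystemAut X := hb
    have hgoal : Equiv.Perm.ofSubtype (g₀⁻¹ * b.1) ∈ setSystemAut X := by
      rcases hd1 with hA | hB
      · have hbB : ∀ x, x ∈ X ↔ toMask ((Equiv.Perm.ofSubtype b.1).trans E) x ∈ w23L := by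
          rcases hdich b.1 b.2 with h | h
          · exfalso
            apply hb'
            have := same_type E b.1 1 w23aL h (by rw [hE1]; exact hA)
            rw [inv_one, one_mul] at this
            exact this
          · exact h
        exact same_type E b.1 g₀ w23L hbB (hflipA hA)
      · have hbA : ∀ x, x ∈ X ↔ toMask ((Equiv.Perm.ofSubtype b.1).trans E) x ∈ w23aL := by
          rcases hdich b.1 b.2 with h | h
          · exact h
          · exfalso
            apply hb'
            have := same_type E b.1 1 w23L h (by rw [hE1]; exact hB)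
            rw [inv_one, one_mul] at this
            exact this
        exact same_type E b.1 g₀ w23aL hbA (hflipB hB)
    exact hgoal

end

end Cfsg.Agent.H9.Stg
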