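import Cfsg.Agent.H9.M24b
import Cfsg.Agent.H9.Stg24

/-!
# Uniqueness of the binary Golay code (helper9)

A doubly even binary code of length `24` and dimension `12` without words of weight `4` has
covering radius `4` (a count of cosets), so its words of weight `8` form a Steiner system
`S(5, 8, 24)`; by the uniqueness of that system the code is equivalent to `golayCode`.
-/

set_option autoImplicit false
set_option linter.unusedSectionVars false

namespace Cfsg.Agent.H9.GU

open Cfsg Cfsg.Agent.H9

/-! ## indicator words -/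

section ind
variable {ι : Type*} [DecidableEq ι]

/-- the word with support `s` -/
def ind (s : Finset ι) : ι → ZMod 2 := fun i => if i ∈ s then 1 else 0

theorem one_add_one_zmod2 : (1 : ZMod 2) + 1 = 0 := by decide

theorem ind_add (s t : Finset ι) : ind s + ind t = ind (symmDiff s t) := by
  funext i
  simp only [Pi.add_apply, ind, Finset.mem_symmDiff]
  by_cases hs : i ∈ s <;> by_cases ht : i ∈ t <;> simp [hs, ht, one_add_one_zmod2]

theorem ind_sub (s t : Finset ι) : ind s - ind t = ind (symmDiff s t) := by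
  rw [← ind_add]
  funext i
  simp only [Pi.sub_apply, Pi.add_apply]
  exact CharTwo.sub_eq_add _ _

theorem hammingNorm_ind [Fintype ι] (s : Finset ι) : hammingNorm (ind s) = s.card := by
  unfold hammingNorm
  congr 1
  ext i
  simp [ind]

theorem card_symmDiff_add (s t : Finset ι) :
    (symmDiff s t).card + 2 * (s ∩ t).card = s.card + t.card := by
  have h1 : symmDiff s t = s \ t ∪ t \ s := symmDiff_def s t
  have h2 : Disjoint (s \ t) (t \ s) := disjoint_sdiff_sdiff
  rw [h1, Finset.card_union_of_disjoint h2]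
  have h3 := Finset.card_sdiff_add_card_inter s t
  have h4 := Finset.card_sdiff_add_card_inter t s
  rw [Finset.inter_comm t s] at h4
  omega

theorem symmDiff_ne_empty {s t : Finset ι} (h : s ≠ t) : symmDiff s t ≠ ∅ := by
  intro h'
  apply h
  rw [← Finset.bot_eq_empty] at h'
  exact symmDiff_eq_bot.mp h'

end ind

/-! ## the covering radius -/

section cover
variable (C : Submodule (ZMod 2) (Fin 24 → ZMod 2))

set_option maxHeartbeats 400000 in
theorem fiber_sum_le (hmin : ∀ s : Finset (Fin 24), ind s ∈ C → s ≠ ∅ → 8 ≤ s.card)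
    (F : Finset (Finset (Fin 24))) (hF4 : ∀ s ∈ F, s.card ≤ 4)
    (hFC : ∀ s ∈ F, ∀ s' ∈ F, ind (symmDiff s s') ∈ C) :
    ∑ s ∈ F, (if s.card = 4 then 1 else 6) ≤ 6 := by
  have key : ∀ s ∈ F, ∀ s' ∈ F, s ≠ s' → s.card = 4 ∧ s'.card = 4 ∧ Disjoint s s' := by
    intro s hs s' hs' hne
    have h1 := hmin _ (hFC s hs s' hs') (symmDiff_ne_empty hne)
    have h2 := card_symmDiff_add s s'
    have h3 := hF4 s hs
    have h4 := hF4 s' hs'
    have h5 : (s ∩ s').card = 0 := by omega
    refine ⟨by omega, by omega, ?_⟩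
    rw [Finset.disjoint_iff_inter_eq_empty]
    exact Finset.card_eq_zero.mp h5
  by_cases h : ∃ s₀ ∈ F, s₀.card ≠ 4
  · obtain ⟨s₀, hs₀, hc⟩ := h
    have hF : F = {s₀} := by
      rw [Finset.eq_singleton_iff_unique_mem]
      refine ⟨hs₀, fun s hs => ?_⟩
      by_contra hne
      exact hc (key s₀ hs₀ s hs (Ne.symm hne)).1
    rw [hF, Finset.sum_singleton, if_neg hc]
  · push Not at h
    have h1 : ∑ s ∈ F, (if s.card = 4 then 1 else 6) = F.card := by
      rw [Finset.card_eq_sum_ones]
      apply Finset.sum_congr rfl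
      intro s hs
      rw [if_pos (h s hs)]
    rw [h1]
    have h2 : (F.biUnion id).card = ∑ s ∈ F, (id s).card :=
      Finset.card_biUnion (fun s hs s' hs' hne => (key s hs s' hs' hne).2.2)
    have h3 : ∑ s ∈ F, (id s).card = ∑ s ∈ F, 4 := by
      apply Finset.sum_congr rfl
      intro s hs
      exact h s hs
    rw [h3, Finset.sum_const, smul_eq_mul] at h2
    have h4 : (F.biUnion id).card ≤ 24 := by
      have := Finset.card_le_univ (F.biUnion id)
      rwa [Fintype.card_fin] at this
    omega

set_option maxHeartbeats 400000 in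
theorem total_sum : ∑ s ∈ (Finset.range 5).biUnion
    (fun j => Finset.powersetCard j (Finset.univ : Finset (Fin 24))),
    (if s.card = 4 then 1 else 6) = 24576 := by
  rw [Finset.sum_biUnion ((Finset.pairwise_disjoint_powersetCard _).set_pairwise _)]
  have h : ∀ j, ∑ s ∈ Finset.powersetCard j (Finset.univ : Finset (Fin 24)),
      (if s.card = 4 then 1 else 6) = Nat.choose 24 j * (if j = 4 then 1 else 6) := by
    intro j
    rw [Finset.sum_congr rfl (g := fun _ => if j = 4 then 1 else 6)
      (fun s hs => by rw [(Finset.mem_powersetCard.mp hs).2]), Finset.sum_const,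
      Finset.card_powersetCard, Finset.card_univ, Fintype.card_fin, smul_eq_mul]
  simp only [h]
  decide

set_option maxHeartbeats 400000 in
/-- every word is within distance `4` of the code -/
theorem cover (hcard : Nat.card C = 4096)
    (hmin : ∀ s : Finset (Fin 24), ind s ∈ C → s ≠ ∅ → 8 ≤ s.card) (u : Fin 24 → ZMod 2) :
    ∃ s : Finset (Fin 24), s.card ≤ 4 ∧ ind s - u ∈ C := by
  classical
  haveI : Fintype ((Fin 24 → ZMod 2) ⧸ C) := Fintype.ofFinite _
  have hQ : Fintype.card ((Fin 24 → ZMod 2) ⧸ C) = 4096 := by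
    have h1 := Submodule.card_eq_card_quotient_mul_card C
    have h2 : Nat.card (Fin 24 → ZMod 2) = 2 ^ 24 := by
      rw [Nat.card_eq_fintype_card, Fintype.card_fun, ZMod.card, Fintype.card_fin]
    rw [h2, hcard, Nat.card_eq_fintype_card] at h1
    omega
  have hX : ∀ s ∈ (Finset.range 5).biUnion
      (fun j => Finset.powersetCard j (Finset.univ : Finset (Fin 24))), s.card ≤ 4 := by
    intro s hs
    obtain ⟨j, hj, hsj⟩ := Finset.mem_biUnion.mp hs
    rw [(Finset.mem_powersetCard.mp hsj).2]
    have := Finset.mem_range.mp hj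
    omega
  have h1 := Finset.sum_fiberwise ((Finset.range 5).biUnion
      (fun j => Finset.powersetCard j (Finset.univ : Finset (Fin 24))))
    (fun s => (Submodule.Quotient.mk (ind s) : (Fin 24 → ZMod 2) ⧸ C))
    (fun s => if s.card = 4 then 1 else 6)
  have h2 : ∀ q : (Fin 24 → ZMod 2) ⧸ C, ∑ s ∈ ((Finset.range 5).biUnion
      (fun j => Finset.powersetCard j (Finset.univ : Finset (Fin 24)))).filter
      (fun s => (Submodule.Quotient.mk (ind s) : (Fin 24 → ZMod 2) ⧸ C) = q),
      (if s.card = 4 then 1 else 6) ≤ 6 := by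
    intro q
    apply fiber_sum_le C hmin
    · intro s hs
      exact hX s (Finset.mem_filter.mp hs).1
    · intro s hs s' hs'
      have e1 := (Finset.mem_filter.mp hs).2
      have e2 := (Finset.mem_filter.mp hs').2
      have := (Submodule.Quotient.eq C).mp (e1.trans e2.symm)
      rwa [ind_sub] at this
  have h3 : ∑ q : (Fin 24 → ZMod 2) ⧸ C, ∑ s ∈ ((Finset.range 5).biUnion
      (fun j => Finset.powersetCard j (Finset.univ : Finset (Fin 24)))).filter
      (fun s => (Submodule.Quotient.mk (ind s) : (Fin 24 → ZMod 2) ⧸ C) = q),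
      (if s.card = 4 then 1 else 6) = ∑ _q : (Fin 24 → ZMod 2) ⧸ C, 6 := by
    rw [h1, total_sum, Finset.sum_const, Finset.card_univ, hQ]
    rfl
  have h4 := (Finset.sum_eq_sum_iff_of_le (fun q _ => h2 q)).mp h3
    (Submodule.Quotient.mk u) (Finset.mem_univ _)
  have h5 : (((Finset.range 5).biUnion
      (fun j => Finset.powersetCard j (Finset.univ : Finset (Fin 24)))).filter
      (fun s => (Submodule.Quotient.mk (ind s) : (Fin 24 → ZMod 2) ⧸ C) =
        Submodule.Quotient.mk u)).Nonempty := by
    by_contra hne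
    rw [Finset.not_nonempty_iff_eq_empty] at hne
    rw [hne, Finset.sum_empty] at h4
    exact absurd h4 (by norm_num)
  obtain ⟨s, hs⟩ := h5
  exact ⟨s, hX s (Finset.mem_filter.mp hs).1,
    (Submodule.Quotient.eq C).mp (Finset.mem_filter.mp hs).2⟩

end cover

/-! ## the octads of the code -/

section steiner
variable (C : Submodule (ZMod 2) (Fin 24 → ZMod 2))

/-- the supports of the words of weight `8` -/
def octC : Set (Finset (Fin 24)) := {b | b.card = 8 ∧ ind b ∈ C}

set_option maxHeartbeats 400000 in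
theorem octC_steiner (hdim : Module.finrank (ZMod 2) C = 12)
    (h4 : ∀ w ∈ C, 4 ∣ hammingNorm w) (hno4 : ∀ w ∈ C, hammingNorm w ≠ 4) :
    IsSteinerSystem 5 8 (octC C) := by
  have hcard : Nat.card C = 4096 := by
    rw [Module.natCard_eq_pow_finrank (K := ZMod 2), hdim, Nat.card_zmod]
    norm_num
  have hdiv : ∀ s : Finset (Fin 24), ind s ∈ C → 4 ∣ s.card := by
    intro s hs
    have := h4 _ hs
    rwa [hammingNorm_ind] at this
  have hmin : ∀ s : Finset (Fin 24), ind s ∈ C → s ≠ ∅ → 8 ≤ s.card := by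
    intro s hs hne
    obtain ⟨k, hk⟩ := hdiv s hs
    have h1 := hno4 _ hs
    rw [hammingNorm_ind] at h1
    have h2 : s.card ≠ 0 := fun h => hne (Finset.card_eq_zero.mp h)
    omega
  constructor
  · intro b hb
    exact hb.1
  · intro T hT
    obtain ⟨s, hs4, hsC⟩ := cover C hcard hmin (ind T)
    rw [ind_sub] at hsC
    have hne : s ≠ T := by
      intro h
      rw [h] at hs4
      omega
    have h8 := hmin _ hsC (symmDiff_ne_empty hne)
    obtain ⟨k, hk⟩ := hdiv _ hsC
    have hadd := card_symmDiff_add s T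
    have hi : (s ∩ T).card ≤ s.card := Finset.card_le_card Finset.inter_subset_left
    have hc8 : (symmDiff s T).card = 8 := by omega
    have hi0 : (s ∩ T).card = 0 := by omega
    have hdisj : s ∩ T = ∅ := Finset.card_eq_zero.mp hi0
    have hTb : T ⊆ symmDiff s T := by
      intro a ha
      rw [Finset.mem_symmDiff]
      right
      refine ⟨ha, fun has => ?_⟩
      have : a ∈ s ∩ T := Finset.mem_inter.mpr ⟨has, ha⟩
      rw [hdisj] at this
      exact absurd this (Finset.notMem_empty a)
    refine ⟨symmDiff s T, ⟨⟨hc8, hsC⟩, hTb⟩, ?_⟩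
    rintro b' ⟨⟨hb'8, hb'C⟩, hTb'⟩
    by_contra hne'
    have h1 : ind (symmDiff b' (symmDiff s T)) ∈ C := by
      rw [← ind_add]
      exact Submodule.add_mem _ hb'C hsC
    have h2 := hmin _ h1 (symmDiff_ne_empty hne')
    have h3 := card_symmDiff_add b' (symmDiff s T)
    have h5 : T.card ≤ (b' ∩ symmDiff s T).card :=
      Finset.card_le_card (Finset.subset_inter hTb' hTb)
    omega

end steiner

/-! ## equivalence with the Golay code -/

theorem map_dec_comb_mem' {M : Type*} [AddCommGroup M] [Module (ZMod 2) M]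
    (L : (GolayPt → ZMod 2) →ₗ[ZMod 2] M) (C : Submodule (ZMod 2) M) (l : List ℕ)
    (h : ∀ b ∈ l, L (dec b) ∈ C) (k : ℕ) : L (dec (comb l k)) ∈ C := by
  induction l generalizing k with
  | nil => simp only [comb]; rw [dec_zero, map_zero]; exact Submodule.zero_mem _
  | cons b bs ih =>
    simp only [comb]
    rw [dec_xor, map_add]
    apply Submodule.add_mem
    · rcases Nat.mod_two_eq_zero_or_one k with hk | hk
      · rw [hk, zero_mul, dec_zero, map_zero]; exact Submodule.zero_mem _
      · rw [hk, one_mul]; exact h b (List.mem_cons_self ..)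
    · exact ih (fun c hc => h c (List.mem_cons_of_mem _ hc)) _

set_option maxHeartbeats 400000 in
/-- a doubly even code of length `24` and dimension `12` without words of weight `4` is
equivalent to the Golay code -/
theorem golay_unique (C : Submodule (ZMod 2) (Fin 24 → ZMod 2))
    (hdim : Module.finrank (ZMod 2) C = 12)
    (h4 : ∀ w ∈ C, 4 ∣ hammingNorm w) (hno4 : ∀ w ∈ C, hammingNorm w ≠ 4) :
    ∃ e : Fin 24 ≃ GolayPt, ∀ w : GolayPt → ZMod 2,
      w ∈ golayCode ↔ (fun i => w (e i)) ∈ C := by
  obtain ⟨e1, he1⟩ := Stg.w24_std (Fintype.card_fin 24) (octC_steiner C hdim h4 hno4)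
  obtain ⟨e2, he2⟩ := Stg.w24_std card_golayPt octads_steiner
  have he := Stc.iso_of_std e1 e2 he1 he2
  obtain ⟨e, hedef⟩ : ∃ e : Fin 24 ≃ GolayPt, e = e1.trans e2.symm := ⟨_, rfl⟩
  rw [← hedef] at he
  obtain ⟨Φ, hΦ⟩ : ∃ Φ : (GolayPt → ZMod 2) ≃ₗ[ZMod 2] (Fin 24 → ZMod 2),
      ∀ w i, Φ w i = w (e i) :=
    ⟨LinearEquiv.funCongrLeft (ZMod 2) (ZMod 2) e, fun w i => rfl⟩
  have hbasis : ∀ b ∈ basisL, Φ.toLinearMap (dec b) ∈ C := by
    intro b hb
    have h1 : fs b ∈ octads := fs_basis_mem_octads hb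
    rw [← he] at h1
    obtain ⟨b₀, hb₀, hb₀e⟩ := h1
    have h2 : Φ.toLinearMap (dec b) = ind b₀ := by
      funext i
      show Φ (dec b) i = ind b₀ i
      rw [hΦ]
      have h3 : (b.testBit (gIdx (e i)) = true) ↔ i ∈ b₀ := by
        rw [← mem_fs, ← hb₀e]
        show e i ∈ b₀.image e ↔ _
        rw [Finset.mem_image]
        constructor
        · rintro ⟨j, hj, hje⟩
          exact e.injective hje ▸ hj
        · intro h
          exact ⟨i, h, rfl⟩
      unfold dec ind
      simp only [h3]
    rw [h2]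
    exact hb₀.2
  have hfwd : ∀ w ∈ golayCode, Φ.toLinearMap w ∈ C := by
    intro w hw
    obtain ⟨k, -, rfl⟩ := (mem_golayCode_iff w).mp hw
    exact map_dec_comb_mem' _ C basisL hbasis k
  have hmap : golayCode.map Φ.toLinearMap = C := by
    apply Submodule.eq_of_le_of_finrank_eq
    · rintro _ ⟨w, hw, rfl⟩
      exact hfwd w hw
    · rw [LinearEquiv.finrank_map_eq, golayCode_finrank, hdim]
  have hfun : ∀ w : GolayPt → ZMod 2, (fun i => w (e i)) = Φ.toLinearMap w := fun w => by
    funext i
    exact (hΦ w i).symm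
  refine ⟨e, fun w => ?_⟩
  rw [hfun]
  refine ⟨hfwd w, fun h => ?_⟩
  have h' : Φ.toLinearMap w ∈ golayCode.map Φ.toLinearMap := by
    rw [hmap]
    exact h
  obtain ⟨w', hw', hww⟩ := h'
  have : w' = w := Φ.injective hww
  exact this ▸ hw'

end Cfsg.Agent.H9.GU
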