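import Cfsg.Agent.H9.M12c

/-!
# The stabiliser of a hexad in the stabiliser of a dodecad (helper9)

The joint stabiliser of a dodecad `d` and a hexad `C` on it restricts isomorphically onto the
symmetric group of `C` (sharp 5-transitivity on `d` + uniqueness of the hexad through 5 points).
-/

set_option autoImplicit false

namespace Cfsg.Agent.H9

open Cfsg MulAction
open scoped Pointwise

/-- a five-point embedding into a finset with at least five points -/
theorem exists_emb5_in {s : Finset GolayPt} (hs : 5 ≤ s.card) :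
    ∃ x : Fin 5 ↪ GolayPt, ∀ i, x i ∈ s := by
  obtain ⟨t, ht, ht5⟩ := Finset.exists_subset_card_eq hs
  let e := (Finset.equivFinOfCardEq ht5).symm
  exact ⟨e.toEmbedding.trans (Function.Embedding.subtype _), fun i => ht (e i).2⟩

/-- an element of the stabiliser of a dodecad fixing five of its points is trivial -/
theorem dod_stab_eq_one {d : Finset GolayPt} (hd : d ∈ dodecads) {s : Finset GolayPt}
    (hsd : s ⊆ d) (hs : 5 ≤ s.card) (g : MulAction.stabilizer M24 d)
    (hfix : ∀ p ∈ s, ((g : M24) : Equiv.Perm GolayPt) p = p) : g = 1 := by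
  obtain ⟨x, hx⟩ := exists_emb5_in hs
  have huniq := Cfsg.Agent.S0384.result d hd x x (fun i => hsd (hx i)) (fun i => hsd (hx i))
  exact huniq.unique (fun i => hfix _ (hx i)) (fun i => rfl)

theorem hexad_unique {d C C' : Finset GolayPt} (hC : C ∈ hexadsOn d) (hC' : C' ∈ hexadsOn d)
    (h : 5 ≤ (C ∩ C').card) : C = C' := by
  obtain ⟨-, o, ho, rfl⟩ := hC
  obtain ⟨-, o', ho', rfl⟩ := hC'
  obtain ⟨s, hs, hs5⟩ := Finset.exists_subset_card_eq h
  have e : o = o' := octad_unique ho ho' hs5
    (fun x hx => (Finset.mem_inter.mp (Finset.mem_inter.mp (hs hx)).1).1)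
    (fun x hx => (Finset.mem_inter.mp (Finset.mem_inter.mp (hs hx)).2).1)
  rw [e]

theorem hexad_sub {d C : Finset GolayPt} (hC : C ∈ hexadsOn d) : C ⊆ d := by
  obtain ⟨-, o, -, rfl⟩ := hC
  exact Finset.inter_subset_right

theorem smul_mem_hexadsOn_h9 {g : Equiv.Perm GolayPt} (hg : g ∈ M24) {d h : Finset GolayPt}
    (hh : h ∈ hexadsOn d) : g • h ∈ hexadsOn (g • d) := by
  obtain ⟨hc, o, ho, rfl⟩ := hh
  refine ⟨by rw [Finset.card_smul_finset]; exact hc, g • o, smul_mem_octads hg ho, ?_⟩
  rw [Finset.smul_finset_inter]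

theorem perm_eq_of_eq_off {α : Type*} (f σ : Equiv.Perm α) (c : α)
    (h : ∀ a, a ≠ c → f a = σ a) : f = σ := by
  ext a
  by_cases ha : a = c
  · subst ha
    by_contra hne
    have hb : σ.symm (f a) ≠ a := by
      intro hb
      apply hne
      rw [← Equiv.symm_apply_eq, hb]
    have h1 := h _ hb
    rw [Equiv.apply_symm_apply] at h1
    exact hb (f.injective h1)
  · exact h a ha

/-- the joint stabiliser of `d` and `C` acting on `C` -/
def hexRestr (d C : Finset GolayPt) :
    ↥(MulAction.stabilizer M24 d ⊓ MulAction.stabilizer M24 C) →* Equiv.Perm {x // x ∈ C} where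
  toFun g := Equiv.Perm.subtypePerm ((g : M24) : Equiv.Perm GolayPt) (by
    intro x
    have h : (g : M24) • C = C := mem_stabilizer_iff.mp (Subgroup.mem_inf.mp g.2).2
    have h1 : (g : M24) • x ∈ (g : M24) • C ↔ x ∈ C := Finset.smul_mem_smul_finset_iff _
    rw [h] at h1
    exact h1)
  map_one' := by
    ext x
    rfl
  map_mul' := by
    intro a b
    ext x
    rfl

theorem hexRestr_apply (d C : Finset GolayPt)
    (g : ↥(MulAction.stabilizer M24 d ⊓ MulAction.stabilizer M24 C)) (x : {x // x ∈ C}) :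
    ((hexRestr d C g x : {x // x ∈ C}) : GolayPt) = ((g : M24) : Equiv.Perm GolayPt) x := rfl

theorem hexRestr_bijective {d : Finset GolayPt} (hd : d ∈ dodecads) {C : Finset GolayPt}
    (hC : C ∈ hexadsOn d) : Function.Bijective (hexRestr d C) := by
  have hc6 : C.card = 6 := hC.1
  constructor
  · rw [injective_iff_map_eq_one]
    intro g hg
    have h1 : (⟨(g : M24), (Subgroup.mem_inf.mp g.2).1⟩ : MulAction.stabilizer M24 d) = 1 := by
      apply dod_stab_eq_one hd (hexad_sub hC) (by rw [hc6]; norm_num)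
      intro p hp
      have h2 := hexRestr_apply d C g ⟨p, hp⟩
      rw [hg] at h2
      exact h2.symm
    have h3 : (g : M24) = 1 := congrArg (Subtype.val : MulAction.stabilizer M24 d → M24) h1
    exact Subtype.ext h3
  · intro σ
    let e : {x // x ∈ C} ≃ Fin 6 := Finset.equivFinOfCardEq hc6
    let x : Fin 5 ↪ GolayPt :=
      (Fin.castSuccEmb.trans e.symm.toEmbedding).trans (Function.Embedding.subtype _)
    let y : Fin 5 ↪ GolayPt :=
      ((Fin.castSuccEmb.trans e.symm.toEmbedding).trans σ.toEmbedding).trans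
        (Function.Embedding.subtype _)
    have hx : ∀ i, x i ∈ C := fun i => (e.symm (Fin.castSucc i)).2
    have hy : ∀ i, y i ∈ C := fun i => (σ (e.symm (Fin.castSucc i))).2
    obtain ⟨g, hg, -⟩ := Cfsg.Agent.S0384.result d hd x y (fun i => hexad_sub hC (hx i))
      (fun i => hexad_sub hC (hy i))
    have hgd : (g : M24) • d = d := mem_stabilizer_iff.mp g.2
    have hgC : (g : M24) • C = C := by
      have h1 : (g : M24) • C ∈ hexadsOn d := by
        have h2 := smul_mem_hexadsOn_h9 (g : M24).2 hC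
        rw [show ((g : M24) : Equiv.Perm GolayPt) • d = d from hgd] at h2
        exact h2
      apply hexad_unique h1 hC
      have h3 : Finset.univ.map y ⊆ (g : M24) • C ∩ C := by
        intro z hz
        obtain ⟨i, -, rfl⟩ := Finset.mem_map.mp hz
        refine Finset.mem_inter.mpr ⟨?_, hy i⟩
        rw [← hg i]
        exact Finset.smul_mem_smul_finset (hx i)
      calc 5 = (Finset.univ.map y).card := by simp
        _ ≤ _ := Finset.card_le_card h3
    refine ⟨⟨(g : M24), Subgroup.mem_inf.mpr ⟨g.2, mem_stabilizer_iff.mpr hgC⟩⟩, ?_⟩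
    apply perm_eq_of_eq_off _ _ (e.symm (Fin.last 5))
    intro a ha
    have ha' : e a ≠ Fin.last 5 := by
      intro h
      apply ha
      rw [← h, Equiv.symm_apply_apply]
    obtain ⟨i, hi⟩ := Fin.exists_castSucc_eq.mpr ha'
    have hai : a = e.symm (Fin.castSucc i) := by rw [hi, Equiv.symm_apply_apply]
    rw [hai]
    exact Subtype.ext (hg i)

/-- the joint stabiliser of a dodecad and a hexad on it is a symmetric group of degree 6, faithful
on the hexad and on the complementary hexad -/
theorem hexad_stab_main (d : Finset GolayPt) (hd : d ∈ dodecads) (C : Finset GolayPt)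
    (hC : C ∈ hexadsOn d) :
    Nonempty (↥(MulAction.stabilizer M24 d ⊓ MulAction.stabilizer M24 C) ≃* Equiv.Perm (Fin 6)) ∧
    (∀ g ∈ MulAction.stabilizer M24 d ⊓ MulAction.stabilizer M24 C,
      (∀ p ∈ C, ((g : ↥M24) : Equiv.Perm GolayPt) p = p) → g = 1) ∧
    ∀ g ∈ MulAction.stabilizer M24 d ⊓ MulAction.stabilizer M24 C,
      (∀ p ∈ d \ C, ((g : ↥M24) : Equiv.Perm GolayPt) p = p) → g = 1 := by
  have hc6 : C.card = 6 := hC.1
  have hsub := hexad_sub hC
  refine ⟨⟨(MulEquiv.ofBijective (hexRestr d C) (hexRestr_bijective hd hC)).trans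
    (Equiv.permCongrHom (Finset.equivFinOfCardEq hc6))⟩, ?_, ?_⟩
  · intro g hg hfix
    have h1 : (⟨g, (Subgroup.mem_inf.mp hg).1⟩ : MulAction.stabilizer M24 d) = 1 :=
      dod_stab_eq_one hd hsub (by rw [hc6]; norm_num) _ hfix
    exact congrArg (Subtype.val : MulAction.stabilizer M24 d → M24) h1
  · intro g hg hfix
    have h0 := Finset.card_sdiff_add_card_eq_card hsub
    have hd12 : d.card = 12 := hd.2
    have h1 : (⟨g, (Subgroup.mem_inf.mp hg).1⟩ : MulAction.stabilizer M24 d) = 1 :=
      dod_stab_eq_one hd Finset.sdiff_subset (by omega) _ hfix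
    exact congrArg (Subtype.val : MulAction.stabilizer M24 d → M24) h1

end Cfsg.Agent.H9
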