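import Cfsg.Agent.H9.Sharp2
import Cfsg.Agent.H9.Hexad
import Cfsg.Agent.H9.M11
import Cfsg.Agent.H33.DodStab
import Cfsg.Agent.H7.Quat
import Cfsg.Agent.H16.Sharp3

/-!
# The pointwise stabiliser of three points of a dodecad in its stabiliser (helper9)

It is sharply 2-transitive on the nine remaining points (order 72); its Sylow 3-subgroup is normal
of exponent 3 and its Sylow 2-subgroups are quaternion of order 8.
-/

set_option autoImplicit false

namespace Cfsg.Agent.H9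

open Cfsg MulAction
open scoped Pointwise

/-- the pointwise stabiliser of three points in the stabiliser of a dodecad -/
abbrev m9Grp (d : Finset GolayPt) (p q r : GolayPt) : Subgroup M24 :=
  MulAction.stabilizer M24 d ⊓ MulAction.stabilizer M24 p ⊓ MulAction.stabilizer M24 q ⊓
    MulAction.stabilizer M24 r

theorem mem_m9Grp {d : Finset GolayPt} {p q r : GolayPt} {g : M24} :
    g ∈ m9Grp d p q r ↔ g • d = d ∧ g • p = p ∧ g • q = q ∧ g • r = r := by
  simp only [m9Grp, Subgroup.mem_inf, mem_stabilizer_iff, and_assoc]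

/-- the embedding attached to five distinct points -/
def emb5 {α : Type*} (a b c d e : α) (h : [a, b, c, d, e].Nodup) : Fin 5 ↪ α :=
  ⟨![a, b, c, d, e], by
    intro i j hij
    fin_cases i <;> fin_cases j <;> simp_all⟩

/-- the nine further points of the dodecad, acted on by the stabiliser of three points -/
def dod3Sub (d : Finset GolayPt) (p q r : GolayPt) : SubMulAction ↥(m9Grp d p q r) GolayPt where
  carrier := {x | x ∈ ((d.erase p).erase q).erase r}
  smul_mem' := by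
    intro g x hx
    obtain ⟨h1, h2, h3, h4⟩ := mem_m9Grp.mp g.2
    rw [Set.mem_setOf_eq, Finset.mem_erase, Finset.mem_erase, Finset.mem_erase] at hx ⊢
    obtain ⟨hxr, hxq, hxp, hxd⟩ := hx
    have hinj := MulAction.injective (g : M24) (β := GolayPt)
    refine ⟨fun e => hxr (hinj (e.trans h4.symm)), fun e => hxq (hinj (e.trans h3.symm)),
      fun e => hxp (hinj (e.trans h2.symm)), ?_⟩
    have h5 : (g : M24) • x ∈ (g : M24) • d := Finset.smul_mem_smul_finset hxd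
    rw [h1] at h5
    exact h5

theorem card_dod3Sub {d : Finset GolayPt} (hd : d ∈ dodecads) {p q r : GolayPt} (hp : p ∈ d)
    (hq : q ∈ d) (hr : r ∈ d) (hpq : p ≠ q) (hpr : p ≠ r) (hqr : q ≠ r) :
    Nat.card (dod3Sub d p q r) = 9 := by
  have h1 : Nat.card (dod3Sub d p q r) = Nat.card {x // x ∈ ((d.erase p).erase q).erase r} := rfl
  have hq' : q ∈ d.erase p := Finset.mem_erase.mpr ⟨hpq.symm, hq⟩
  have hr' : r ∈ (d.erase p).erase q :=
    Finset.mem_erase.mpr ⟨hqr.symm, Finset.mem_erase.mpr ⟨hpr.symm, hr⟩⟩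
  rw [h1, Nat.card_eq_fintype_card, Fintype.card_coe, Finset.card_erase_of_mem hr',
    Finset.card_erase_of_mem hq', Finset.card_erase_of_mem hp, hd.2]

theorem dod3_nodup {d : Finset GolayPt} {p q r : GolayPt} (hpq : p ≠ q) (hpr : p ≠ r)
    (hqr : q ≠ r) (x : Fin 2 ↪ dod3Sub d p q r) :
    [p, q, r, ((x 0 : dod3Sub d p q r) : GolayPt), ((x 1 : dod3Sub d p q r) : GolayPt)].Nodup := by
  have h0 : ((x 0 : dod3Sub d p q r) : GolayPt) ∈ ((d.erase p).erase q).erase r := (x 0).2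
  have h1 : ((x 1 : dod3Sub d p q r) : GolayPt) ∈ ((d.erase p).erase q).erase r := (x 1).2
  rw [Finset.mem_erase, Finset.mem_erase, Finset.mem_erase] at h0 h1
  have h01 : ((x 0 : dod3Sub d p q r) : GolayPt) ≠ ((x 1 : dod3Sub d p q r) : GolayPt) := by
    intro e
    have h2 := x.injective (Subtype.ext e)
    exact absurd h2 (by decide)
  obtain ⟨a1, a2, a3, -⟩ := h0
  obtain ⟨b1, b2, b3, -⟩ := h1
  simp only [List.nodup_cons, List.mem_cons, List.not_mem_nil, or_false, not_or, List.nodup_nil,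
    and_true, not_false_eq_true]
  exact ⟨⟨hpq, hpr, Ne.symm a3, Ne.symm b3⟩, ⟨hqr, Ne.symm a2, Ne.symm b2⟩,
    ⟨Ne.symm a1, Ne.symm b1⟩, h01⟩

theorem dod3_emb_mem {d : Finset GolayPt} {p q r : GolayPt} (hp : p ∈ d) (hq : q ∈ d)
    (hr : r ∈ d) (hpq : p ≠ q) (hpr : p ≠ r) (hqr : q ≠ r) (x : Fin 2 ↪ dod3Sub d p q r)
    (i : Fin 5) : emb5 p q r ((x 0 : dod3Sub d p q r) : GolayPt)
      ((x 1 : dod3Sub d p q r) : GolayPt) (dod3_nodup hpq hpr hqr x) i ∈ d := by
  have h0 : ((x 0 : dod3Sub d p q r) : GolayPt) ∈ d :=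
    Finset.mem_of_mem_erase (Finset.mem_of_mem_erase (Finset.mem_of_mem_erase (x 0).2))
  have h1 : ((x 1 : dod3Sub d p q r) : GolayPt) ∈ d :=
    Finset.mem_of_mem_erase (Finset.mem_of_mem_erase (Finset.mem_of_mem_erase (x 1).2))
  fin_cases i
  · exact hp
  · exact hq
  · exact hr
  · exact h0
  · exact h1

theorem dod3Sub_two_trans {d : Finset GolayPt} (hd : d ∈ dodecads) {p q r : GolayPt} (hp : p ∈ d)
    (hq : q ∈ d) (hr : r ∈ d) (hpq : p ≠ q) (hpr : p ≠ r) (hqr : q ≠ r) :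
    IsMultiplyPretransitive ↥(m9Grp d p q r) (dod3Sub d p q r) 2 := by
  rw [MulAction.isMultiplyPretransitive_iff]
  intro x y
  obtain ⟨g, hg, _⟩ := Cfsg.Agent.S0384.result d hd
    (emb5 p q r _ _ (dod3_nodup hpq hpr hqr x)) (emb5 p q r _ _ (dod3_nodup hpq hpr hqr y))
    (dod3_emb_mem hp hq hr hpq hpr hqr x) (dod3_emb_mem hp hq hr hpq hpr hqr y)
  have hgK : (g : M24) ∈ m9Grp d p q r :=
    mem_m9Grp.mpr ⟨mem_stabilizer_iff.mp g.2, hg 0, hg 1, hg 2⟩
  refine ⟨⟨(g : M24), hgK⟩, Function.Embedding.ext fun i => Subtype.ext ?_⟩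
  fin_cases i
  · exact hg 3
  · exact hg 4

theorem dod3Sub_sharp {d : Finset GolayPt} (hd : d ∈ dodecads) {p q r : GolayPt} (hp : p ∈ d)
    (hq : q ∈ d) (hr : r ∈ d) (hpq : p ≠ q) (hpr : p ≠ r) (hqr : q ≠ r)
    (x : Fin 2 ↪ dod3Sub d p q r) :
    MulAction.stabilizer ↥(m9Grp d p q r) x = ⊥ := by
  rw [Subgroup.eq_bot_iff_forall]
  intro g hg
  rw [mem_stabilizer_iff] at hg
  obtain ⟨h1, h2, h3, h4⟩ := mem_m9Grp.mp g.2
  have huniq := Cfsg.Agent.S0384.result d hd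
    (emb5 p q r _ _ (dod3_nodup hpq hpr hqr x)) (emb5 p q r _ _ (dod3_nodup hpq hpr hqr x))
    (dod3_emb_mem hp hq hr hpq hpr hqr x) (dod3_emb_mem hp hq hr hpq hpr hqr x)
  have h5 : (⟨(g : M24), mem_stabilizer_iff.mpr h1⟩ : MulAction.stabilizer M24 d) = 1 := by
    refine huniq.unique (fun i => ?_) (fun i => rfl)
    fin_cases i
    · exact h2
    · exact h3
    · exact h4
    · exact congrArg (fun f : Fin 2 ↪ dod3Sub d p q r => ((f 0 : dod3Sub d p q r) : GolayPt)) hg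
    · exact congrArg (fun f : Fin 2 ↪ dod3Sub d p q r => ((f 1 : dod3Sub d p q r) : GolayPt)) hg
  have h6 : (g : M24) = 1 := congrArg (Subtype.val : MulAction.stabilizer M24 d → M24) h5
  exact Subtype.ext h6

instance dod3Sub_finite (d : Finset GolayPt) (p q r : GolayPt) : Finite (dod3Sub d p q r) :=
  Finite.of_injective (fun x : dod3Sub d p q r => (x : GolayPt)) Subtype.val_injective

theorem card_m9Grp {d : Finset GolayPt} (hd : d ∈ dodecads) {p q r : GolayPt} (hp : p ∈ d)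
    (hq : q ∈ d) (hr : r ∈ d) (hpq : p ≠ q) (hpr : p ≠ r) (hqr : q ≠ r) :
    Nat.card ↥(m9Grp d p q r) = 72 :=
  sharp2_card (card_dod3Sub hd hp hq hr hpq hpr hqr) (dod3Sub_two_trans hd hp hq hr hpq hpr hqr)
    (dod3Sub_sharp hd hp hq hr hpq hpr hqr)

theorem m9_sylow3 {d : Finset GolayPt} (hd : d ∈ dodecads) {p q r : GolayPt} (hp : p ∈ d)
    (hq : q ∈ d) (hr : r ∈ d) (hpq : p ≠ q) (hpr : p ≠ r) (hqr : q ≠ r)
    (Q : Sylow 3 ↥(m9Grp d p q r)) :
    (Q : Subgroup ↥(m9Grp d p q r)).Normal ∧ Nat.card Q = 9 ∧ ∀ x ∈ Q, x ^ 3 = 1 :=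
  sharp2_sylow3 (card_dod3Sub hd hp hq hr hpq hpr hqr)
    (dod3Sub_two_trans hd hp hq hr hpq hpr hqr) (dod3Sub_sharp hd hp hq hr hpq hpr hqr) Q

end Cfsg.Agent.H9
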