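import Cfsg.Agent.H9.M9
import Cfsg.Agent.H9.M11b
import Cfsg.Agent.H9.Duad2

/-!
# The Sylow 2-subgroups of the three-point stabiliser of a dodecad are quaternion (helper9)
-/

set_option autoImplicit false

namespace Cfsg.Agent.H9

open Cfsg MulAction Cfsg.Agent.H33
open scoped Pointwise

def m8C : ℕ := 0xbd8584e51b3577321474ba8418aa0
def m8CI : ℕ := 0x63c2594613b19d56a4ea42e8418ae0
def m8W : ℕ := 0x9962fab2e1a29303accd722c418a40
def m8WI : ℕ := 0x8966fb86aca1d12539a65a6c418a00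

theorem m8C_inv : chkInv m8C m8CI = true := by decide +kernel
theorem m8W_inv : chkInv m8W m8WI = true := by decide +kernel
theorem m8C_m24 : chkM24 m8C = true := by decide +kernel
theorem m8W_m24 : chkM24 m8W = true := by decide +kernel

/-- two generators of the stabiliser of the standard dodecad and of the indices 0, 2, 3, 4 -/
def m8c : Equiv.Perm GolayPt := permOf m8C m8CI m8C_inv
def m8w : Equiv.Perm GolayPt := permOf m8W m8WI m8W_inv

theorem m8c_rep : Rep m8C m8c := rep_permOf _ _ _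
theorem m8w_rep : Rep m8W m8w := rep_permOf _ _ _
theorem m8c_mem : m8c ∈ M24 := permOf_mem_M24 _ _ _ m8C_m24
theorem m8w_mem : m8w ∈ M24 := permOf_mem_M24 _ _ _ m8W_m24

theorem rep_fix_pt {P : ℕ} {g : Equiv.Perm GolayPt} (h : Rep P g) {i : ℕ} (hi : i < 24)
    (hl : lk P i = i) : g (gPt i) = gPt i := by
  have h1 := h (gPt i)
  rw [gIdx_gPt hi, hl] at h1
  apply gIdx_injective
  rw [h1, gIdx_gPt hi]

theorem m8c_dod : m8c • dod0 = dod0 := by
  unfold dod0
  rw [smul_fs m8c_rep]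
  exact congrArg fs (by decide +kernel)

theorem m8w_dod : m8w • dod0 = dod0 := by
  unfold dod0
  rw [smul_fs m8w_rep]
  exact congrArg fs (by decide +kernel)

theorem m8c_0 : m8c (gPt 0) = gPt 0 := rep_fix_pt m8c_rep (by norm_num) (by decide +kernel)
theorem m8c_2 : m8c (gPt 2) = gPt 2 := rep_fix_pt m8c_rep (by norm_num) (by decide +kernel)
theorem m8c_3 : m8c (gPt 3) = gPt 3 := rep_fix_pt m8c_rep (by norm_num) (by decide +kernel)
theorem m8w_0 : m8w (gPt 0) = gPt 0 := rep_fix_pt m8w_rep (by norm_num) (by decide +kernel)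
theorem m8w_2 : m8w (gPt 2) = gPt 2 := rep_fix_pt m8w_rep (by norm_num) (by decide +kernel)
theorem m8w_3 : m8w (gPt 3) = gPt 3 := rep_fix_pt m8w_rep (by norm_num) (by decide +kernel)

theorem m8_c4 : m8c ^ 4 = 1 := by
  have h : Rep (compN m8C (compN m8C (compN m8C m8C))) (m8c * (m8c * (m8c * m8c))) :=
    rep_compP m8c_rep (rep_compP m8c_rep (rep_compP m8c_rep m8c_rep))
  have h1 := eq_one_of_isIdP h (by decide +kernel)
  have e : m8c ^ 4 = m8c * (m8c * (m8c * m8c)) := by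
    rw [pow_succ, pow_succ, pow_succ, pow_one]
    simp only [mul_assoc]
  rw [e, h1]

theorem m8_c2 : ¬ m8c ^ 2 = 1 := by
  intro h
  have h1 : Rep (compN m8C m8C) (m8c * m8c) := rep_compP m8c_rep m8c_rep
  have h2 : m8c * m8c = 1 := by rw [← pow_two]; exact h
  rw [h2] at h1
  have h3 := isIdP_of_rep_one h1
  exact absurd h3 (by decide +kernel)

theorem m8_ww : m8w * m8w = m8c ^ 2 := by
  rw [pow_two]
  have h1 : Rep (compN m8W m8W) (m8w * m8w) := rep_compP m8w_rep m8w_rep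
  have h2 : Rep (compN m8C m8C) (m8c * m8c) := rep_compP m8c_rep m8c_rep
  have e : compN m8C m8C = compN m8W m8W := by decide +kernel
  rw [e] at h2
  exact rep_unique h1 h2

theorem m8_cw : m8c * m8w = m8w * m8c⁻¹ := by
  have h1 : Rep (compN (compN m8C m8W) m8C) (m8c * m8w * m8c) :=
    rep_compP (rep_compP m8c_rep m8w_rep) m8c_rep
  have e : compN (compN m8C m8W) m8C = m8W := by decide +kernel
  rw [e] at h1
  have h2 : m8c * m8w * m8c = m8w := rep_unique h1 m8w_rep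
  rw [eq_mul_inv_iff_mul_eq]
  exact h2

theorem gPt2_mem_dod0 : gPt 2 ∈ dod0 := (gPt_mem_fs (by norm_num)).mpr (by decide)
theorem gPt3_mem_dod0 : gPt 3 ∈ dod0 := (gPt_mem_fs (by norm_num)).mpr (by decide)

/-- `M24` is transitive on the dodecads with three marked points -/
theorem exists_map_dod3 {d : Finset GolayPt} (hd : d ∈ dodecads) {p q r : GolayPt} (hp : p ∈ d)
    (hq : q ∈ d) (hr : r ∈ d) (hpq : p ≠ q) (hpr : p ≠ r) (hqr : q ≠ r) :
    ∃ h ∈ M24, h • dod0 = d ∧ h (gPt 0) = p ∧ h (gPt 2) = q ∧ h (gPt 3) = r := by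
  obtain ⟨g, hg, hgd⟩ := exists_smul_dod0 hd
  haveI := dodSub_five_trans hd
  haveI : Finite (dodSub d) :=
    Finite.of_injective (fun x : dodSub d => (x : GolayPt)) Subtype.val_injective
  have h3 : IsMultiplyPretransitive (MulAction.stabilizer M24 d) (dodSub d) 3 :=
    MulAction.isMultiplyPretransitive_of_le (n := 5) (by norm_num)
      (by rw [card_dodSub hd]; norm_num)
  have m0 : g (gPt 0) ∈ d := by rw [← hgd]; exact Finset.smul_mem_smul_finset gPt0_mem_dod0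
  have m2 : g (gPt 2) ∈ d := by rw [← hgd]; exact Finset.smul_mem_smul_finset gPt2_mem_dod0
  have m3 : g (gPt 3) ∈ d := by rw [← hgd]; exact Finset.smul_mem_smul_finset gPt3_mem_dod0
  have hne : ∀ {i j : ℕ} {mi : g (gPt i) ∈ d} {mj : g (gPt j) ∈ d}, i < 24 → j < 24 → i ≠ j →
      (⟨g (gPt i), mi⟩ : dodSub d) ≠ ⟨g (gPt j), mj⟩ := by
    intro i j mi mj hi hj hij e
    exact gPt_ne hi hj hij (g.injective (congrArg Subtype.val e))
  have hne' : ∀ {a b : GolayPt} {ma : a ∈ d} {mb : b ∈ d}, a ≠ b →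
      (⟨a, ma⟩ : dodSub d) ≠ ⟨b, mb⟩ := by
    intro a b ma mb hab e
    exact hab (congrArg Subtype.val e)
  obtain ⟨k, hk0, hk2, hk3⟩ := Cfsg.Agent.H16.exists_smul3 h3
    (a := (⟨g (gPt 0), m0⟩ : dodSub d)) (b := ⟨g (gPt 2), m2⟩) (c := ⟨g (gPt 3), m3⟩)
    (a' := ⟨p, hp⟩) (b' := ⟨q, hq⟩) (c' := ⟨r, hr⟩)
    (hne (by norm_num) (by norm_num) (by norm_num)) (hne (by norm_num) (by norm_num) (by norm_num))
    (hne (by norm_num) (by norm_num) (by norm_num)) (hne' hpq) (hne' hpr) (hne' hqr)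
  refine ⟨((k : M24) : Equiv.Perm GolayPt) * g, mul_mem (k : M24).2 hg, ?_, ?_, ?_, ?_⟩
  · rw [mul_smul, hgd]
    exact mem_stabilizer_iff.mp k.2
  · exact congrArg Subtype.val hk0
  · exact congrArg Subtype.val hk2
  · exact congrArg Subtype.val hk3

theorem m9_sylow2 {d : Finset GolayPt} (hd : d ∈ dodecads) {p q r : GolayPt} (hp : p ∈ d)
    (hq : q ∈ d) (hr : r ∈ d) (hpq : p ≠ q) (hpr : p ≠ r) (hqr : q ≠ r)
    (P : Sylow 2 ↥(m9Grp d p q r)) : Nonempty (↥P ≃* QuaternionGroup 2) := by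
  haveI : Fact (Nat.Prime 2) := ⟨Nat.prime_two⟩
  obtain ⟨h, hh, hd0, h0, h2, h3⟩ := exists_map_dod3 hd hp hq hr hpq hpr hqr
  have key : ∀ u : Equiv.Perm GolayPt, u ∈ M24 → u • dod0 = dod0 → u (gPt 0) = gPt 0 →
      u (gPt 2) = gPt 2 → u (gPt 3) = gPt 3 →
      ∃ hm : h * u * h⁻¹ ∈ M24, (⟨h * u * h⁻¹, hm⟩ : M24) ∈ m9Grp d p q r := by
    intro u hu e0 e1 e2 e3
    refine ⟨mul_mem (mul_mem hh hu) (inv_mem hh), mem_m9Grp.mpr ⟨?_, ?_, ?_, ?_⟩⟩
    · show (h * u * h⁻¹) • d = d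
      rw [← hd0, mul_smul, mul_smul, inv_smul_smul, e0]
    · show (h * u * h⁻¹) p = p
      rw [← h0]
      simp [e1]
    · show (h * u * h⁻¹) q = q
      rw [← h2]
      simp [e2]
    · show (h * u * h⁻¹) r = r
      rw [← h3]
      simp [e3]
  obtain ⟨hcm, hcK⟩ := key m8c m8c_mem m8c_dod m8c_0 m8c_2 m8c_3
  obtain ⟨hwm, hwK⟩ := key m8w m8w_mem m8w_dod m8w_0 m8w_2 m8w_3
  let cK : ↥(m9Grp d p q r) := ⟨⟨h * m8c * h⁻¹, hcm⟩, hcK⟩
  let wK : ↥(m9Grp d p q r) := ⟨⟨h * m8w * h⁻¹, hwm⟩, hwK⟩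
  let ψ : ↥(m9Grp d p q r) →* Equiv.Perm GolayPt := (M24.subtype).comp (m9Grp d p q r).subtype
  have hψ : Function.Injective ψ :=
    (Subgroup.subtype_injective _).comp (Subgroup.subtype_injective _)
  have hψc : ψ cK = h * m8c * h⁻¹ := rfl
  have hψw : ψ wK = h * m8w * h⁻¹ := rfl
  have hc4 : orderOf cK = 2 * 2 := by
    show orderOf cK = 2 ^ (1 + 1)
    apply orderOf_eq_prime_pow
    · intro e
      have e1 := congrArg ψ e
      rw [map_pow, map_one, hψc, conj_pow, pow_one] at e1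
      apply m8_c2
      have e2 : m8c ^ 2 = h⁻¹ * (h * m8c ^ 2 * h⁻¹) * h := by group
      rw [e2, e1]
      group
    · apply hψ
      have e4 : m8c ^ 2 ^ (1 + 1) = 1 := m8_c4
      rw [map_pow, map_one, hψc, conj_pow, e4, mul_one, mul_inv_cancel]
  have hww : wK * wK = cK ^ 2 := by
    apply hψ
    rw [map_mul, map_pow, hψc, hψw, conj_pow, ← m8_ww]
    group
  have hcw : cK * wK = wK * cK⁻¹ := by
    apply hψ
    rw [map_mul, map_mul, map_inv, hψc, hψw]
    calc h * m8c * h⁻¹ * (h * m8w * h⁻¹) = h * (m8c * m8w) * h⁻¹ := by group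
      _ = h * (m8w * m8c⁻¹) * h⁻¹ := by rw [m8_cw]
      _ = h * m8w * h⁻¹ * (h * m8c * h⁻¹)⁻¹ := by group
  obtain ⟨φ, hφ⟩ := Cfsg.Agent.H7.exists_quaternion_hom 2 le_rfl cK wK hc4 hww hcw
  have hK : Nat.card ↥(m9Grp d p q r) = 72 := card_m9Grp hd hp hq hr hpq hpr hqr
  have hR : Nat.card φ.range = 8 := by
    rw [← Nat.card_congr (MonoidHom.ofInjective hφ).toEquiv, Nat.card_eq_fintype_card,
      QuaternionGroup.card]
  have hpg : IsPGroup 2 φ.range := IsPGroup.of_card (n := 3) (by rw [hR]; norm_num)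
  obtain ⟨P1, hP1⟩ := hpg.exists_le_sylow
  have hP1c : Nat.card P1 = 8 := by
    rw [Sylow.card_eq_multiplicity, hK]
    have h72 : (72 : ℕ) = 2 ^ 3 * 3 ^ 2 := by norm_num
    have hf : (72 : ℕ).factorization 2 = 3 := by
      rw [h72, Nat.factorization_mul (by norm_num) (by norm_num), Nat.factorization_pow,
        Nat.factorization_pow]
      simp [Nat.Prime.factorization_self Nat.prime_two, Nat.factorization_eq_zero_of_not_dvd]
    rw [hf]
    norm_num
  have heq : φ.range = (P1 : Subgroup ↥(m9Grp d p q r)) :=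
    Subgroup.eq_of_le_of_card_ge hP1 (by rw [hR, hP1c])
  exact ⟨(Sylow.equiv P P1).trans ((MulEquiv.subgroupCongr heq.symm).trans
    (MonoidHom.ofInjective hφ).symm)⟩

/-- the three-point stabiliser of a dodecad: Sylow 3 normal elementary abelian of order 9,
Sylow 2 quaternion -/
theorem m9_main (d : Finset GolayPt) (hd : d ∈ dodecads) (p q r : GolayPt) (hp : p ∈ d)
    (hq : q ∈ d) (hr : r ∈ d) (hpq : p ≠ q) (hpr : p ≠ r) (hqr : q ≠ r) :
    (∀ Q : Sylow 3 ↥(MulAction.stabilizer M24 d ⊓ MulAction.stabilizer M24 p ⊓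
        MulAction.stabilizer M24 q ⊓ MulAction.stabilizer M24 r),
      (Q : Subgroup ↥(MulAction.stabilizer M24 d ⊓ MulAction.stabilizer M24 p ⊓
        MulAction.stabilizer M24 q ⊓ MulAction.stabilizer M24 r)).Normal ∧ Nat.card ↥Q = 9 ∧
      ∀ x ∈ (Q : Subgroup ↥(MulAction.stabilizer M24 d ⊓ MulAction.stabilizer M24 p ⊓
        MulAction.stabilizer M24 q ⊓ MulAction.stabilizer M24 r)), x ^ 3 = 1) ∧
    ∀ P : Sylow 2 ↥(MulAction.stabilizer M24 d ⊓ MulAction.stabilizer M24 p ⊓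
        MulAction.stabilizer M24 q ⊓ MulAction.stabilizer M24 r),
      Nonempty (↥P ≃* QuaternionGroup 2) :=
  ⟨fun Q => m9_sylow3 hd hp hq hr hpq hpr hqr Q, fun P => m9_sylow2 hd hp hq hr hpq hpr hqr P⟩

end Cfsg.Agent.H9
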