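import Mathlib
import Cfsg.Agent.H9.M24b
import Cfsg.Agent.H33.R3.Defs

/-!
# `M₂₂` is 3-transitive on its 22 points (helper9; piece S1666-M22TR of helper33's project)
-/

set_option autoImplicit false

namespace Cfsg.Agent.H9.R3

open Cfsg Cfsg.Agent.H33.R3

theorem inj5 {α : Type*} (a b c d e : α) (hab : a ≠ b) (hac : a ≠ c) (had : a ≠ d) (hae : a ≠ e)
    (hbc : b ≠ c) (hbd : b ≠ d) (hbe : b ≠ e) (hcd : c ≠ d) (hce : c ≠ e) (hde : d ≠ e) :
    Function.Injective ![a, b, c, d, e] := by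
  intro i j h
  fin_cases i <;> fin_cases j <;>
    first
    | rfl
    | exact absurd h hab | exact absurd h.symm hab
    | exact absurd h hac | exact absurd h.symm hac
    | exact absurd h had | exact absurd h.symm had
    | exact absurd h hae | exact absurd h.symm hae
    | exact absurd h hbc | exact absurd h.symm hbc
    | exact absurd h hbd | exact absurd h.symm hbd
    | exact absurd h hbe | exact absurd h.symm hbe
    | exact absurd h hcd | exact absurd h.symm hcd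
    | exact absurd h hce | exact absurd h.symm hce
    | exact absurd h hde | exact absurd h.symm hde

theorem val_ne {p q : P22} (h : p ≠ q) : p.1 ≠ q.1 := fun e => h (Subtype.ext e)

/-- the embedding `(∞, 0, p₁, p₂, p₃)` -/
def emb5 (p1 p2 p3 : P22) (h12 : p1 ≠ p2) (h13 : p1 ≠ p3) (h23 : p2 ≠ p3) : Fin 5 ↪ GolayPt :=
  ⟨![none, some 0, p1.1, p2.1, p3.1],
    inj5 _ _ _ _ _ (by simp) (Ne.symm p1.2.1) (Ne.symm p2.2.1) (Ne.symm p3.2.1)
      (Ne.symm p1.2.2) (Ne.symm p2.2.2) (Ne.symm p3.2.2) (val_ne h12) (val_ne h13) (val_ne h23)⟩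

/-- M22TR: `M₂₂` is 3-transitive on its 22 points. -/
theorem m22tr : StM22 := by
  intro p1 p2 p3 q1 q2 q3 hp12 hp13 hp23 hq12 hq13 hq23
  obtain ⟨g, hg, hgi⟩ := Cfsg.Agent.H9.exists_map_emb5 (emb5 p1 p2 p3 hp12 hp13 hp23)
    (emb5 q1 q2 q3 hq12 hq13 hq23)
  have h0 : g none = none := hgi 0
  have h1 : g (some 0) = some 0 := hgi 1
  have h2 : g p1.1 = q1.1 := hgi 2
  have h3 : g p2.1 = q2.1 := hgi 3
  have h4 : g p3.1 = q3.1 := hgi 4
  refine ⟨⟨g, ⟨⟨hg, h0⟩, h1⟩⟩, Subtype.ext h2, Subtype.ext h3, Subtype.ext h4⟩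

example : Cfsg.Agent.H33.R3.StM22 := m22tr

end Cfsg.Agent.H9.R3
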