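import Mathlib
import Cfsg.Agent.H33.R3.Defs

/-!
# Subgroups of index 22 in a 3-transitive group of degree 22 and order 443520 (helper9)

Piece S1666-T of helper33's project: such a subgroup is a point stabiliser.  The stabiliser of
three points has order 48, so elements of order 5 and 7 fix at most two points and an orbit of the
subgroup of length `s` has `s mod 5 < 3` and `s mod 7 < 3`; orbits of length `2, …, 7` are too
short for the order `20160`.  Hence every orbit has length `1` or at least `15`.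
-/

set_option autoImplicit false

namespace Cfsg.Agent.H9.R3

open MulAction Cfsg.Agent.H33.R3

section

variable {M P : Type} [Group M] [Fintype P] [MulAction M P]

/-- the embedding given by three distinct points -/
def emb3 (a b c : P) (hab : a ≠ b) (hac : a ≠ c) (hbc : b ≠ c) : Fin 3 ↪ P :=
  ⟨![a, b, c], by
    intro i j h
    fin_cases i <;> fin_cases j <;>
      first
      | rfl
      | exact absurd h hab | exact absurd h.symm hab
      | exact absurd h hac | exact absurd h.symm hac
      | exact absurd h hbc | exact absurd h.symm hbc⟩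

theorem exists_third (hP : Fintype.card P = 22) (a b : P) : ∃ c : P, a ≠ c ∧ b ≠ c := by
  classical
  by_contra h
  push Not at h
  have hsub : (Finset.univ : Finset P) ⊆ {a, b} := by
    intro c _
    by_cases hac : a = c
    · simp [hac]
    · simp [h c hac]
  have h1 := Finset.card_le_card hsub
  rw [Finset.card_univ, hP] at h1
  have h2 : ({a, b} : Finset P).card ≤ 2 := Finset.card_le_two
  omega

theorem orbit_emb_univ (h3 : Tr3 M P) (τ : Fin 3 ↪ P) : orbit M τ = Set.univ := by
  ext σ
  simp only [Set.mem_univ, iff_true]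
  have i01 : (0 : Fin 3) ≠ 1 := by decide
  have i02 : (0 : Fin 3) ≠ 2 := by decide
  have i12 : (1 : Fin 3) ≠ 2 := by decide
  obtain ⟨m, h0, h1, h2⟩ := h3 (τ 0) (τ 1) (τ 2) (σ 0) (σ 1) (σ 2)
    (fun h => i01 (τ.injective h)) (fun h => i02 (τ.injective h)) (fun h => i12 (τ.injective h))
    (fun h => i01 (σ.injective h)) (fun h => i02 (σ.injective h)) (fun h => i12 (σ.injective h))
  refine ⟨m, ?_⟩
  ext i
  show m • τ i = σ i
  fin_cases i
  · exact h0
  · exact h1
  · exact h2

theorem card_stab_emb (hP : Fintype.card P = 22) (hM : Nat.card M = 443520) (h3 : Tr3 M P)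
    (τ : Fin 3 ↪ P) : Nat.card (stabilizer M τ) = 48 := by
  have h := Subgroup.card_mul_index (stabilizer M τ)
  rw [index_stabilizer, orbit_emb_univ h3 τ, Set.ncard_univ,
    Nat.card_eq_fintype_card (α := Fin 3 ↪ P), Fintype.card_embedding_eq, hP, Fintype.card_fin,
    hM] at h
  have e : Nat.descFactorial 22 3 = 9240 := by decide
  rw [e] at h
  omega

theorem orbit_mod (hP : Fintype.card P = 22) (hM : Nat.card M = 443520) (h3 : Tr3 M P)
    (K : Subgroup M) (q : ℕ) [Fact q.Prime] (hq : q ∣ Nat.card K) (hq48 : ¬ q ∣ 48) (x : P) :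
    (orbit ↥K x).ncard % q < 3 := by
  by_contra hcon
  push Not at hcon
  have hfin : Finite M := Nat.finite_of_card_ne_zero (by rw [hM]; norm_num)
  obtain ⟨g, hg⟩ := exists_prime_orderOf_dvd_card' q hq
  have hZ : IsPGroup q ↥(Subgroup.zpowers g) :=
    IsPGroup.of_card (n := 1) (by rw [Nat.card_zpowers, hg, pow_one])
  have hcong := hZ.card_modEq_card_fixedPoints (orbit ↥K x)
  rw [Nat.card_coe_set_eq] at hcong
  have h3le : 2 < (fixedPoints ↥(Subgroup.zpowers g) ↥(orbit ↥K x)).ncard := by
    rw [← Nat.card_coe_set_eq]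
    have h1 : (orbit ↥K x).ncard % q =
        Nat.card ↥(fixedPoints ↥(Subgroup.zpowers g) ↥(orbit ↥K x)) % q := hcong
    have h2 := Nat.mod_le (Nat.card ↥(fixedPoints ↥(Subgroup.zpowers g) ↥(orbit ↥K x))) q
    omega
  obtain ⟨a, b, c, ha, hb, hc, hab, hac, hbc⟩ := (Set.two_lt_ncard_iff (Set.toFinite _)).1 h3le
  have hfix : ∀ y ∈ fixedPoints ↥(Subgroup.zpowers g) ↥(orbit ↥K x),
      ((g : ↥K) : M) • (y : P) = y := by
    intro y hy
    have h1 := hy ⟨g, Subgroup.mem_zpowers g⟩
    exact congrArg Subtype.val h1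
  have hmem : ((g : ↥K) : M) ∈ stabilizer M (emb3 (a : P) b c (fun h => hab (Subtype.ext h))
      (fun h => hac (Subtype.ext h)) (fun h => hbc (Subtype.ext h))) := by
    rw [mem_stabilizer_iff]
    ext i
    show ((g : ↥K) : M) • (emb3 (a : P) b c _ _ _) i = (emb3 (a : P) b c _ _ _) i
    fin_cases i
    · exact hfix a ha
    · exact hfix b hb
    · exact hfix c hc
  have hdvd := Subgroup.orderOf_dvd_natCard _ hmem
  rw [Subgroup.orderOf_coe, hg, card_stab_emb hP hM h3] at hdvd
  exact hq48 hdvd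

theorem orbit_emb_le (K : Subgroup M) (τ : Fin 3 ↪ P) :
    (orbit ↥K τ).ncard ≤
      (orbit ↥K (τ 0)).ncard * (orbit ↥K (τ 1)).ncard * (orbit ↥K (τ 2)).ncard := by
  let f : ↥(orbit ↥K τ) → ((i : Fin 3) → ↥(orbit ↥K (τ i))) := fun σ i => ⟨σ.1 i, by
    obtain ⟨k, hk⟩ := σ.2
    exact ⟨k, by rw [← hk]; rfl⟩⟩
  have hf : Function.Injective f := by
    intro σ σ' h
    apply Subtype.ext
    ext i
    exact congrArg (fun F => ((F i : ↥(orbit ↥K (τ i))) : P)) h
  have h1 := Nat.card_le_card_of_injective f hf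
  rw [Nat.card_pi, Fin.prod_univ_three] at h1
  simpa [Nat.card_coe_set_eq] using h1

theorem card_le_48 (hP : Fintype.card P = 22) (hM : Nat.card M = 443520) (h3 : Tr3 M P)
    (K : Subgroup M) (τ : Fin 3 ↪ P) :
    Nat.card ↥K ≤ 48 *
      ((orbit ↥K (τ 0)).ncard * (orbit ↥K (τ 1)).ncard * (orbit ↥K (τ 2)).ncard) := by
  have hfin : Finite M := Nat.finite_of_card_ne_zero (by rw [hM]; norm_num)
  have h := Subgroup.card_mul_index (stabilizer ↥K τ)
  rw [index_stabilizer] at h
  have h1 : Nat.card ↥(stabilizer ↥K τ) ≤ 48 := by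
    rw [← card_stab_emb hP hM h3 τ]
    let f : ↥(stabilizer ↥K τ) → ↥(stabilizer M τ) := fun k => ⟨((k : ↥K) : M), k.2⟩
    apply Nat.card_le_card_of_injective f
    intro a b hab
    apply Subtype.ext
    apply Subtype.ext
    exact congrArg (fun z : ↥(stabilizer M τ) => (z : M)) hab
  rw [← h]
  exact Nat.mul_le_mul h1 (orbit_emb_le K τ)

end

/-- T: in a 3-transitive group of degree 22 and order 443520, a subgroup of index 22 is a point
stabiliser. -/
theorem lemT : StT := by
  intro M P _ _ _ hP hM h3 K hK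
  have hfin : Finite M := Nat.finite_of_card_ne_zero (by rw [hM]; norm_num)
  have hKc : Nat.card ↥K = 20160 := by
    have h := Subgroup.card_mul_index K
    rw [hK, hM] at h
    omega
  have : Fact (Nat.Prime 5) := ⟨by norm_num⟩
  have : Fact (Nat.Prime 7) := ⟨by norm_num⟩
  have hle22 : ∀ s : Set P, s.ncard ≤ 22 := by
    intro s
    have h := Set.ncard_le_ncard (Set.subset_univ s) (Set.toFinite _)
    rwa [Set.ncard_univ, Nat.card_eq_fintype_card (α := P), hP] at h
  have hsize : ∀ x : P, (orbit ↥K x).ncard = 1 ∨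
      (15 ≤ (orbit ↥K x).ncard ∧ (orbit ↥K x).ncard ≤ 21) := by
    intro x
    have h5 := orbit_mod hP hM h3 K 5 (by rw [hKc]; norm_num) (by norm_num) x
    have h7 := orbit_mod hP hM h3 K 7 (by rw [hKc]; norm_num) (by norm_num) x
    have hpos : 0 < (orbit ↥K x).ncard := (Set.ncard_pos (Set.toFinite _)).2 ⟨x, mem_orbit_self x⟩
    have h22 := hle22 (orbit ↥K x)
    have hne22 : (orbit ↥K x).ncard ≠ 22 := by
      intro h
      have h1 := Subgroup.card_mul_index (stabilizer ↥K x)
      rw [index_stabilizer, h, hKc] at h1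
      omega
    have hsmall : ¬ (2 ≤ (orbit ↥K x).ncard ∧ (orbit ↥K x).ncard ≤ 7) := by
      rintro ⟨h2, h7'⟩
      by_cases h3' : 2 < (orbit ↥K x).ncard
      · obtain ⟨a, b, c, ha, hb, hc, hab, hac, hbc⟩ := (Set.two_lt_ncard_iff (Set.toFinite _)).1 h3'
        have hb48 := card_le_48 hP hM h3 K (emb3 a b c hab hac hbc)
        have e0 : orbit ↥K ((emb3 a b c hab hac hbc) 0) = orbit ↥K x := orbit_eq_iff.2 ha
        have e1 : orbit ↥K ((emb3 a b c hab hac hbc) 1) = orbit ↥K x := orbit_eq_iff.2 hb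
        have e2 : orbit ↥K ((emb3 a b c hab hac hbc) 2) = orbit ↥K x := orbit_eq_iff.2 hc
        rw [e0, e1, e2, hKc] at hb48
        have hcube : (orbit ↥K x).ncard * (orbit ↥K x).ncard * (orbit ↥K x).ncard ≤ 7 * 7 * 7 :=
          Nat.mul_le_mul (Nat.mul_le_mul h7' h7') h7'
        omega
      · obtain ⟨a, b, ha, hb, hab⟩ := (Set.one_lt_ncard_iff (Set.toFinite _)).1 h2
        obtain ⟨c, hac, hbc⟩ := exists_third hP a b
        have hb48 := card_le_48 hP hM h3 K (emb3 a b c hab hac hbc)
        have e0 : orbit ↥K ((emb3 a b c hab hac hbc) 0) = orbit ↥K x := orbit_eq_iff.2 ha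
        have e1 : orbit ↥K ((emb3 a b c hab hac hbc) 1) = orbit ↥K x := orbit_eq_iff.2 hb
        rw [e0, e1, hKc] at hb48
        have hc22 := hle22 (orbit ↥K ((emb3 a b c hab hac hbc) 2))
        have hs2 : (orbit ↥K x).ncard = 2 := by omega
        rw [hs2] at hb48
        have : 2 * 2 * (orbit ↥K ((emb3 a b c hab hac hbc) 2)).ncard ≤ 2 * 2 * 22 :=
          Nat.mul_le_mul_left _ hc22
        omega
    omega
  obtain ⟨p, hp⟩ : ∃ p : P, (orbit ↥K p).ncard = 1 := by
    have hne : Nonempty P := by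
      rw [← Fintype.card_pos_iff, hP]
      norm_num
    obtain ⟨x0⟩ := hne
    rcases hsize x0 with h | h
    · exact ⟨x0, h⟩
    · obtain ⟨y, hy⟩ : ∃ y, y ∉ orbit ↥K x0 := by
        by_contra hall
        push Not at hall
        have e : orbit ↥K x0 = Set.univ := Set.eq_univ_of_forall hall
        have h1 := h.2
        rw [e, Set.ncard_univ, Nat.card_eq_fintype_card (α := P), hP] at h1
        omega
      refine ⟨y, ?_⟩
      rcases hsize y with h' | h'
      · exact h'
      · exfalso
        have hd : Disjoint (orbit ↥K x0) (orbit ↥K y) := by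
          rw [Set.disjoint_left]
          intro z hz hz'
          have e1 : orbit ↥K z = orbit ↥K x0 := orbit_eq_iff.2 hz
          have e2 : orbit ↥K z = orbit ↥K y := orbit_eq_iff.2 hz'
          apply hy
          rw [← e1, e2]
          exact mem_orbit_self y
        have hu := Set.ncard_union_eq hd (Set.toFinite _) (Set.toFinite _)
        have hle := hle22 (orbit ↥K x0 ∪ orbit ↥K y)
        omega
  have hfixp : ∀ k ∈ K, k • p = p := by
    intro k hk
    obtain ⟨a, ha⟩ := Set.ncard_eq_one.1 hp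
    have h1 : p ∈ orbit ↥K p := mem_orbit_self p
    have h2 : (⟨k, hk⟩ : ↥K) • p ∈ orbit ↥K p := mem_orbit p _
    rw [ha, Set.mem_singleton_iff] at h1 h2
    exact h2.trans h1.symm
  have hle : K ≤ stabilizer M p := fun k hk => hfixp k hk
  have htrans : orbit M p = Set.univ := by
    ext q
    simp only [Set.mem_univ, iff_true]
    by_cases hq : q = p
    · exact ⟨1, by rw [hq]; exact one_smul _ _⟩
    · obtain ⟨r, hpr, hqr⟩ := exists_third hP p q
      obtain ⟨m, h0, _, _⟩ := h3 p q r q p r (Ne.symm hq) hpr hqr hq hqr hpr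
      exact ⟨m, h0⟩
  refine ⟨p, Subgroup.eq_of_le_of_card_ge hle ?_⟩
  have h := Subgroup.card_mul_index (stabilizer M p)
  rw [index_stabilizer, htrans, Set.ncard_univ, Nat.card_eq_fintype_card (α := P), hP, hM] at h
  rw [hKc]
  omega

example : Cfsg.Agent.H33.R3.StT := lemT

end Cfsg.Agent.H9.R3
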