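import Mathlib
import Cfsg.Agent.H9.S77Defs

/-! # srg(77,16,0,4): the pieces COUNT and NBW -/

set_option autoImplicit false
open Finset

namespace Cfsg.Agent.H9.S77
open Classical

universe u
variable {V : Type u} [Fintype V] {G : SimpleGraph V}

lemma tc_eq_sum (u v w : V) :
    tc G u v w = ∑ m ∈ nb G u ∩ nb G v, if G.Adj w m then 1 else 0 := by
  unfold tc
  rw [← Finset.card_filter, Finset.filter_mem_eq_inter.symm]
  congr 1
  ext x
  simp [mem_nb]

lemma mem_Wset {u v w : V} : w ∈ Wset G u v ↔ w ≠ u ∧ w ≠ v ∧ ¬ G.Adj u w ∧ ¬ G.Adj v w := by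
  simp [Wset]

/-- a neighbour of a common neighbour of `u, v`, other than `u, v`, lies in `W(u,v)` -/
lemma mem_W_of_adj (h : Hyp G) {u v m c : V} (hmu : G.Adj u m) (hmv : G.Adj v m)
    (hc : G.Adj m c) (hcu : c ≠ u) (hcv : c ≠ v) : c ∈ Wset G u v := by
  rw [mem_Wset]
  exact ⟨hcu, hcv, fun hu => h.tri u m c hmu hu hc, fun hv => h.tri v m c hmv hv hc⟩

lemma card_nb_inter_W (h : Hyp G) {u v m : V} (huv : NA G u v) (hmu : G.Adj u m)
    (hmv : G.Adj v m) : ((Wset G u v).filter (fun w => G.Adj w m)).card = 14 := by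
  have h1 : (Wset G u v).filter (fun w => G.Adj w m) = (nb G m \ {u, v}) := by
    ext c
    simp only [mem_filter, mem_sdiff, mem_nb, mem_insert, mem_singleton, not_or]
    constructor
    · rintro ⟨hc, hcm⟩
      rw [mem_Wset] at hc
      exact ⟨hcm.symm, hc.1, hc.2.1⟩
    · rintro ⟨hcm, hcu, hcv⟩
      exact ⟨mem_W_of_adj h hmu hmv hcm hcu hcv, hcm.symm⟩
  rw [h1, Finset.card_sdiff_of_subset, h.deg, Finset.card_pair huv.1]
  intro x hx
  simp only [mem_insert, mem_singleton] at hx
  rcases hx with rfl | rfl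
  · simp [mem_nb, hmu.symm]
  · simp [mem_nb, hmv.symm]

lemma card_nb_inter_nb_W (h : Hyp G) {u v m m' : V} (huv : NA G u v) (hmu : G.Adj u m)
    (hmv : G.Adj v m) (hmu' : G.Adj u m') (hmv' : G.Adj v m') (hne : m ≠ m') :
    ((Wset G u v).filter (fun w => G.Adj w m ∧ G.Adj w m')).card = 2 := by
  have hna : ¬ G.Adj m m' := fun hmm => h.tri u m m' hmu hmu' hmm
  have h1 : (Wset G u v).filter (fun w => G.Adj w m ∧ G.Adj w m') =
      ((nb G m ∩ nb G m') \ {u, v}) := by
    ext c
    simp only [mem_filter, mem_sdiff, mem_inter, mem_nb, mem_insert, mem_singleton, not_or]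
    constructor
    · rintro ⟨hc, hcm, hcm'⟩
      rw [mem_Wset] at hc
      exact ⟨⟨hcm.symm, hcm'.symm⟩, hc.1, hc.2.1⟩
    · rintro ⟨⟨hcm, hcm'⟩, hcu, hcv⟩
      exact ⟨mem_W_of_adj h hmu hmv hcm hcu hcv, hcm.symm, hcm'.symm⟩
  rw [h1, Finset.card_sdiff_of_subset, h.mu m m' hne hna, Finset.card_pair huv.1]
  intro x hx
  simp only [mem_insert, mem_singleton] at hx
  rcases hx with rfl | rfl
  · simp [mem_nb, hmu.symm, hmu'.symm]
  · simp [mem_nb, hmv.symm, hmv'.symm]

lemma card_Wset (h : Hyp G) {u v : V} (huv : NA G u v) : (Wset G u v).card = 47 := by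
  have h1 : Wset G u v = univ \ (({u, v} : Finset V) ∪ (nb G u ∪ nb G v)) := by
    ext w
    simp only [mem_Wset, mem_sdiff, mem_univ, true_and, mem_union, mem_insert, mem_singleton,
      mem_nb, not_or]
    tauto
  have h2 : Disjoint ({u, v} : Finset V) (nb G u ∪ nb G v) := by
    rw [Finset.disjoint_left]
    intro x hx hx2
    simp only [mem_insert, mem_singleton] at hx
    simp only [mem_union, mem_nb] at hx2
    rcases hx with rfl | rfl
    · rcases hx2 with h3 | h3
      · exact G.loopless.irrefl _ h3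
      · exact huv.2 h3.symm
    · rcases hx2 with h3 | h3
      · exact huv.2 h3
      · exact G.loopless.irrefl _ h3
  have h3 : (nb G u ∪ nb G v).card = 28 := by
    have := Finset.card_union_add_card_inter (nb G u) (nb G v)
    rw [h.deg, h.deg, h.mu u v huv.1 huv.2] at this
    omega
  rw [h1, Finset.card_sdiff_of_subset (subset_univ _), Finset.card_univ, h.card,
    Finset.card_union_of_disjoint h2, Finset.card_pair huv.1, h3]

theorem count : PieceCount.{u} := by
  intro V _ G h u v huv
  have hM : ∀ m ∈ nb G u ∩ nb G v, G.Adj u m ∧ G.Adj v m := by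
    intro m hm
    simpa [mem_nb] using hm
  refine ⟨card_Wset h huv, ?_, ?_⟩
  · calc ∑ w ∈ Wset G u v, tc G u v w
        = ∑ w ∈ Wset G u v, ∑ m ∈ nb G u ∩ nb G v, (if G.Adj w m then 1 else 0) := by
          apply Finset.sum_congr rfl; intro w _; exact tc_eq_sum u v w
      _ = ∑ m ∈ nb G u ∩ nb G v, ∑ w ∈ Wset G u v, (if G.Adj w m then 1 else 0) :=
          Finset.sum_comm
      _ = ∑ m ∈ nb G u ∩ nb G v, 14 := by
          apply Finset.sum_congr rfl
          intro m hm
          rw [← Finset.card_filter]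
          exact card_nb_inter_W h huv (hM m hm).1 (hM m hm).2
      _ = 56 := by
          rw [Finset.sum_const, h.mu u v huv.1 huv.2]; rfl
  · calc ∑ w ∈ Wset G u v, tc G u v w ^ 2
        = ∑ w ∈ Wset G u v, ∑ m ∈ nb G u ∩ nb G v, ∑ m' ∈ nb G u ∩ nb G v,
            (if G.Adj w m ∧ G.Adj w m' then 1 else 0) := by
          apply Finset.sum_congr rfl; intro w _
          rw [tc_eq_sum, sq, Finset.sum_mul_sum]
          apply Finset.sum_congr rfl; intro m _
          apply Finset.sum_congr rfl; intro m' _
          by_cases h1 : G.Adj w m <;> by_cases h2 : G.Adj w m' <;> simp [h1, h2]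
      _ = ∑ m ∈ nb G u ∩ nb G v, ∑ m' ∈ nb G u ∩ nb G v, ∑ w ∈ Wset G u v,
            (if G.Adj w m ∧ G.Adj w m' then 1 else 0) := by
          rw [Finset.sum_comm]
          apply Finset.sum_congr rfl; intro m _
          rw [Finset.sum_comm]
      _ = ∑ m ∈ nb G u ∩ nb G v, ∑ m' ∈ nb G u ∩ nb G v, (if m = m' then 14 else 2) := by
          apply Finset.sum_congr rfl; intro m hm
          apply Finset.sum_congr rfl; intro m' hm'
          rw [← Finset.card_filter]
          by_cases hmm : m = m'
          · subst hmm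
            simp only [and_self, if_true]
            exact card_nb_inter_W h huv (hM m hm).1 (hM m hm).2
          · rw [if_neg hmm]
            exact card_nb_inter_nb_W h huv (hM m hm).1 (hM m hm).2 (hM m' hm').1 (hM m' hm').2 hmm
      _ = ∑ m ∈ nb G u ∩ nb G v, (14 + 2 * 3) := by
          apply Finset.sum_congr rfl; intro m hm
          rw [← Finset.sum_erase_add _ _ hm, if_pos rfl]
          have : ∑ x ∈ (nb G u ∩ nb G v).erase m, (if m = x then 14 else 2) =
              ∑ x ∈ (nb G u ∩ nb G v).erase m, 2 := by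
            apply Finset.sum_congr rfl
            intro x hx
            rw [if_neg (Finset.ne_of_mem_erase hx).symm]
          rw [this, Finset.sum_const, Finset.card_erase_of_mem hm, h.mu u v huv.1 huv.2]
          simp
      _ = 80 := by
          rw [Finset.sum_const, h.mu u v huv.1 huv.2]; rfl

theorem nbW : PieceNbW.{u} := by
  intro V _ G h u v huv w hw
  have hw' := mem_Wset.1 hw
  obtain ⟨hwu, hwv, hnu, hnv⟩ := hw'
  have hM : ∀ m ∈ nb G u ∩ nb G v, G.Adj u m ∧ G.Adj v m := by
    intro m hm
    simpa [mem_nb] using hm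
  constructor
  · have h1 : nb G w ∩ Wset G u v = nb G w \ (nb G w ∩ (nb G u ∪ nb G v)) := by
      ext c
      simp only [mem_inter, mem_Wset, mem_sdiff, mem_union, mem_nb, not_and, not_or]
      constructor
      · rintro ⟨hc, -, -, h3, h4⟩
        exact ⟨hc, fun _ => ⟨h3, h4⟩⟩
      · rintro ⟨hc, h3⟩
        refine ⟨hc, ?_, ?_, (h3 hc).1, (h3 hc).2⟩
        · rintro rfl; exact hnu hc.symm
        · rintro rfl; exact hnv hc.symm
    have h2 : (nb G w ∩ (nb G u ∪ nb G v)).card + tc G u v w = 8 := by
      rw [Finset.inter_union_distrib_left]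
      have := Finset.card_union_add_card_inter (nb G w ∩ nb G u) (nb G w ∩ nb G v)
      rw [h.mu w u hwu (fun hh => hnu hh.symm), h.mu w v hwv (fun hh => hnv hh.symm)] at this
      have h3 : nb G w ∩ nb G u ∩ (nb G w ∩ nb G v) = nb G u ∩ nb G v ∩ nb G w := by
        ext c; simp only [mem_inter]; tauto
      rw [h3] at this
      unfold tc
      omega
    rw [h1, Finset.card_sdiff_of_subset Finset.inter_subset_left, h.deg]
    omega
  · have h0 : tc G u v w + ((nb G u ∩ nb G v).filter (fun m => ¬ G.Adj w m)).card = 4 := by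
      have := Finset.card_filter_add_card_filter_not (s := nb G u ∩ nb G v) (fun m => G.Adj w m)
      rw [h.mu u v huv.1 huv.2] at this
      rw [← this]
      congr 1
      unfold tc
      congr 1
      ext c; simp only [mem_inter, mem_filter, mem_nb]
    calc ∑ x ∈ nb G w ∩ Wset G u v, tc G u v x
        = ∑ x ∈ nb G w ∩ Wset G u v, ∑ m ∈ nb G u ∩ nb G v, (if G.Adj x m then 1 else 0) := by
          apply Finset.sum_congr rfl; intro x _; exact tc_eq_sum u v x
      _ = ∑ m ∈ nb G u ∩ nb G v, ∑ x ∈ nb G w ∩ Wset G u v, (if G.Adj x m then 1 else 0) :=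
          Finset.sum_comm
      _ = ∑ m ∈ nb G u ∩ nb G v, (if ¬ G.Adj w m then 4 else 0) := by
          apply Finset.sum_congr rfl
          intro m hm
          rw [← Finset.card_filter]
          by_cases hwm : G.Adj w m
          · rw [if_neg (not_not.2 hwm), Finset.card_eq_zero, Finset.filter_eq_empty_iff]
            intro x hx hxm
            simp only [mem_inter, mem_nb] at hx
            exact h.tri w m x hwm hx.1 hxm.symm
          · rw [if_pos hwm]
            have hmw : w ≠ m := by
              rintro rfl; exact hnu (hM w hm).1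
            rw [← h.mu w m hmw hwm]
            congr 1
            ext c
            simp only [mem_filter, mem_inter, mem_nb]
            constructor
            · rintro ⟨⟨h1, -⟩, h3⟩
              exact ⟨h1, h3.symm⟩
            · rintro ⟨h1, h3⟩
              refine ⟨⟨h1, mem_W_of_adj h (hM m hm).1 (hM m hm).2 h3 ?_ ?_⟩, h3.symm⟩
              · rintro rfl; exact hnu h1.symm
              · rintro rfl; exact hnv h1.symm
      _ = 4 * (4 - tc G u v w) := by
          rw [← Finset.sum_filter, Finset.sum_const, smul_eq_mul, mul_comm]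
          congr 1
          omega

end Cfsg.Agent.H9.S77

/-- exact-statement checks -/
example : Cfsg.Agent.H9.S77.PieceCount.{0} := Cfsg.Agent.H9.S77.count
example : Cfsg.Agent.H9.S77.PieceNbW.{0} := Cfsg.Agent.H9.S77.nbW
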