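import Mathlib
import Cfsg.Agent.H9.S77Count

/-! # srg(77,16,0,4): the pieces EX and N22 -/

set_option autoImplicit false
open Finset

namespace Cfsg.Agent.H9.S77
open Classical

universe u
variable {V : Type u} [Fintype V] {G : SimpleGraph V}

lemma tc_rot (u v w : V) : tc G u v w = tc G v w u := by
  unfold tc
  congr 1
  ext c; simp only [mem_inter]; tauto

lemma tc_swap (u v w : V) : tc G u v w = tc G v u w := by
  unfold tc
  congr 1
  ext c; simp only [mem_inter]; tauto

lemma left_mem_Ln (u v : V) : u ∈ Ln G u v := by simp [Ln]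

lemma right_mem_Ln (u v : V) : v ∈ Ln G u v := by simp [Ln]

theorem ex : PieceEx.{u} := by
  intro V _ G h hLine hN0 hPlane o x y hox hoy hxy ht
  have hoW : o ∈ Wset G x y := by
    rw [mem_Wset]
    exact ⟨hox.1, hoy.1, fun hh => hox.2 hh.symm, fun hh => hoy.2 hh.symm⟩
  have ht' : tc G x y o = 1 := by rw [← tc_rot]; exact ht
  obtain ⟨ho1, ho2⟩ := (hN0 x y hxy o hoW).1 ht'
  refine ⟨_, hPlane x y hxy o ho1 ho2, ?_, ?_, ?_⟩
  · exact Finset.mem_biUnion.2 ⟨x, left_mem_Ln x y, left_mem_Ln o x⟩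
  · exact Finset.mem_biUnion.2 ⟨x, left_mem_Ln x y, right_mem_Ln o x⟩
  · exact Finset.mem_biUnion.2 ⟨y, right_mem_Ln x y, right_mem_Ln o y⟩

theorem n22 : PieceN22.{u} := by
  intro V _ G h hSix
  unfold StN22
  have h1 : ∑ C ∈ planes G, C.card = 21 * (planes G).card := by
    rw [Finset.sum_congr rfl (g := fun _ => 21), Finset.sum_const, smul_eq_mul, mul_comm]
    intro C hC
    exact ((Finset.mem_filter.1 hC).2).2
  have h2 : ∑ C ∈ planes G, C.card = 462 := by
    calc ∑ C ∈ planes G, C.card = ∑ C ∈ planes G, ∑ v : V, (if v ∈ C then 1 else 0) := by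
          apply Finset.sum_congr rfl; intro C _
          rw [Finset.sum_ite_mem, Finset.univ_inter, Finset.sum_const, smul_eq_mul, mul_one]
      _ = ∑ v : V, ∑ C ∈ planes G, (if v ∈ C then 1 else 0) := Finset.sum_comm
      _ = ∑ v : V, 6 := by
          apply Finset.sum_congr rfl; intro v _
          rw [← Finset.card_filter]; exact hSix v
      _ = 462 := by rw [Finset.sum_const, Finset.card_univ, h.card]; rfl
  omega

end Cfsg.Agent.H9.S77

/-- exact-statement checks -/
example : Cfsg.Agent.H9.S77.PieceEx.{0} := Cfsg.Agent.H9.S77.ex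
example : Cfsg.Agent.H9.S77.PieceN22.{0} := Cfsg.Agent.H9.S77.n22
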