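import Cfsg.Agent.H9.S77Defs
import Cfsg.Agent.H9.Stg22

/-!
# srg(77,16,0,4): hypotheses from `IsSRGWith`, transport of the graph isomorphism, assembly
-/

set_option autoImplicit false
open Finset

namespace Cfsg.Agent.H9.S77
open Classical

universe u v w x

theorem hyp_of_srg {V : Type u} [Fintype V] {G : SimpleGraph V} [DecidableRel G.Adj]
    (hG : G.IsSRGWith 77 16 0 4) : Hyp G := by
  refine ⟨hG.card, ?_, ?_, ?_⟩
  · intro v
    have := hG.regular v
    rw [← this]
    unfold SimpleGraph.degree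
    congr 1
    ext w; simp
  · intro u v w huv huw hvw
    have := hG.of_adj u v huv
    rw [Fintype.card_eq_zero_iff] at this
    exact this.false ⟨w, huw, hvw⟩
  · intro u v huv hn
    have := hG.of_not_adj huv hn
    rw [← this]
    symm
    apply Fintype.card_of_subtype
    intro x; simp [SimpleGraph.mem_commonNeighbors]

/-- Two graphs whose vertices are (injectively) labelled by the members of isomorphic set systems,
adjacency being disjointness of labels, are isomorphic. -/
theorem iso_of_blocks {V : Type u} {W : Type v} {α : Type w} {β : Type x}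
    [DecidableEq α] [DecidableEq β]
    (G : SimpleGraph V) (H : SimpleGraph W) (f : V → Finset α) (g : W → Finset β)
    (hf : Function.Injective f) (hg : Function.Injective g)
    (hG : ∀ a b, G.Adj a b ↔ (a ≠ b ∧ Disjoint (f a) (f b)))
    (hH : ∀ a b, H.Adj a b ↔ (a ≠ b ∧ Disjoint (g a) (g b)))
    (hiso : SetSystemIso (Set.range f) (Set.range g)) : Nonempty (G ≃g H) := by
  obtain ⟨e, he⟩ := hiso
  have h1 : ∀ v : V, ∃ w : W, g w = (f v).image e := by
    intro v
    have : (f v).image e ∈ Set.range g := by rw [← he]; exact ⟨f v, ⟨v, rfl⟩, rfl⟩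
    exact this
  have h2 : ∀ w : W, ∃ v : V, (f v).image e = g w := by
    intro w
    have : g w ∈ (fun b : Finset α => b.image e) '' Set.range f := by rw [he]; exact ⟨w, rfl⟩
    obtain ⟨_, ⟨v, rfl⟩, hv⟩ := this
    exact ⟨v, hv⟩
  choose φ hφ using h1
  have hinj : Function.Injective φ := by
    intro a b hab
    apply hf
    have := (hφ a).symm.trans ((congrArg g hab).trans (hφ b))
    exact Finset.image_injective e.injective this
  have hsurj : Function.Surjective φ := by
    intro w
    obtain ⟨v, hv⟩ := h2 w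
    exact ⟨v, hg ((hφ v).trans hv)⟩
  have hbij : Function.Bijective φ := ⟨hinj, hsurj⟩
  refine ⟨⟨Equiv.ofBijective φ hbij, ?_⟩⟩
  intro a b
  show H.Adj (φ a) (φ b) ↔ G.Adj a b
  rw [hG, hH, hφ, hφ, Finset.disjoint_image e.injective, hinj.ne_iff]

/-- Uniqueness from the Steiner-system description. -/
theorem unique_of_steiner {V : Type u} {W : Type v} [Fintype V] [Fintype W]
    {G : SimpleGraph V} {H : SimpleGraph W} (hG : StSteiner G) (hH : StSteiner H) :
    Nonempty (G ≃g H) := by
  obtain ⟨e, he⟩ := Cfsg.Agent.H9.Stg.w22_std hG.1 hG.2.1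
  obtain ⟨e2, he2⟩ := Cfsg.Agent.H9.Stg.w22_std hH.1 hH.2.1
  exact iso_of_blocks G H (blk G) (blk H) hG.2.2.1 hH.2.2.1 hG.2.2.2 hH.2.2.2
    ⟨e.trans e2.symm, Cfsg.Agent.H9.Stc.iso_of_std e e2 he he2⟩

/-- Assembly of the twenty pieces. -/
theorem steiner_of_pieces (pCount : PieceCount.{u}) (pNbW : PieceNbW.{u}) (pK33 : PieceK33.{u})
    (pZnb : PieceZnb.{u}) (pZZ : PieceZZ.{u}) (pLine : PieceLine.{u}) (pTwo : PieceTwo.{u})
    (pN0 : PieceN0.{u}) (pPerp : PiecePerp.{u}) (pPlane : PiecePlane.{u}) (pHoff : PieceHoff.{u})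
    (pSub : PieceSub.{u}) (pUniq : PieceUniq.{u}) (pEx : PieceEx.{u}) (pSix : PieceSix.{u})
    (pPair : PiecePair.{u}) (pN22 : PieceN22.{u}) (pMeet : PieceMeet.{u})
    (pThree : PieceThree.{u}) (pSteiner : PieceSteiner.{u})
    {V : Type u} [Fintype V] (G : SimpleGraph V) (h : Hyp G) : StSteiner G := by
  have hCount := pCount G h
  have hNbW := pNbW G h
  have hK33 := pK33 G h hCount hNbW
  have hZnb := pZnb G h hNbW hK33
  have hZZ := pZZ G h hNbW hK33 hZnb
  have hLine := pLine G h hK33 hZnb hZZ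
  have hTwo := pTwo G h hK33 hLine
  have hN0 := pN0 G h hK33 hZnb hZZ
  have hPerp := pPerp G h hK33 hLine hTwo
  have hPlane := pPlane G h hLine hN0 hPerp
  have hHoff := pHoff G h
  have hSub := pSub G h hK33 hHoff
  have hUniq := pUniq G h hLine hPlane hSub
  have hEx := pEx G h hLine hN0 hPlane
  have hSix := pSix G h hK33 hLine hSub hUniq hEx
  have hPair := pPair G h hK33 hLine hSub hUniq hEx
  have hN22 := pN22 G h hSix
  have hMeet := pMeet G h hLine hSub hUniq hPair hN22
  have hThree := pThree G h hSix hPair hN22 hMeet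
  exact pSteiner G h hSix hPair hN22 hThree

end Cfsg.Agent.H9.S77
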