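import Mathlib
import Cfsg.Agent.H9.S77Count

/-! # srg(77,16,0,4): the pieces K33 and ZNB -/

set_option autoImplicit false
open Finset

namespace Cfsg.Agent.H9.S77
open Classical

universe u
variable {V : Type u} [Fintype V] {G : SimpleGraph V}

lemma tc_le_four (h : Hyp G) {u v : V} (huv : NA G u v) (w : V) : tc G u v w ≤ 4 := by
  unfold tc
  rw [← h.mu u v huv.1 huv.2]
  exact Finset.card_le_card Finset.inter_subset_left

lemma mem_Zset {u v w : V} : w ∈ Zset G u v ↔ w ∈ Wset G u v ∧ tc G u v w = 0 := by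
  simp [Zset]

theorem k33 : PieceK33.{u} := by
  intro V _ G h hCount hNbW u v huv
  obtain ⟨hW, hS1, hS2⟩ := hCount u v huv
  set W := Wset G u v with hWdef
  set p : ℕ → ℕ := fun i => (W.filter (fun w => tc G u v w = i)).card with hp
  have hmaps : ∀ w ∈ W, tc G u v w ∈ range 5 := by
    intro w _
    rw [mem_range]
    have := tc_le_four h huv w
    omega
  have e0 : ∑ i ∈ range 5, p i = 47 := by
    rw [← hW]
    exact (Finset.card_eq_sum_card_fiberwise hmaps).symm
  have e1 : ∑ i ∈ range 5, i * p i = 56 := by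
    rw [← hS1, ← Finset.sum_fiberwise_of_maps_to hmaps]
    apply Finset.sum_congr rfl
    intro i _
    rw [Finset.sum_congr rfl (g := fun _ => i), Finset.sum_const, smul_eq_mul, mul_comm]
    intro x hx
    exact (Finset.mem_filter.1 hx).2
  have e2 : ∑ i ∈ range 5, i ^ 2 * p i = 80 := by
    rw [← hS2, ← Finset.sum_fiberwise_of_maps_to hmaps]
    apply Finset.sum_congr rfl
    intro i _
    rw [Finset.sum_congr rfl (g := fun _ => i ^ 2), Finset.sum_const, smul_eq_mul, mul_comm]
    intro x hx
    rw [(Finset.mem_filter.1 hx).2]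
  simp only [Finset.sum_range_succ, Finset.sum_range_zero] at e0 e1 e2
  have hZ : Zset G u v = W.filter (fun w => tc G u v w = 0) := rfl
  have hp0 : p 0 ≤ 3 := by omega
  have key : ∀ w ∈ W, tc G u v w ≤ 2 := by
    intro w hw
    by_contra hcon
    push Not at hcon
    obtain ⟨hc1, hc2⟩ := hNbW u v huv w hw
    have hle := tc_le_four h huv w
    set X := nb G w ∩ Wset G u v with hX
    have h1 : (X.filter (fun x => ¬ tc G u v x = 0)).card ≤ ∑ x ∈ X, tc G u v x := by
      rw [Finset.card_eq_sum_ones, Finset.sum_filter]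
      apply Finset.sum_le_sum
      intro x _
      by_cases hx : tc G u v x = 0
      · simp [hx]
      · simp only [hx, not_false_eq_true, if_true]; omega
    have h2 := Finset.card_filter_add_card_filter_not (s := X) (fun x => tc G u v x = 0)
    have h3 : (X.filter (fun x => tc G u v x = 0)).card ≤ p 0 := by
      apply Finset.card_le_card
      intro x hx
      simp only [mem_filter] at hx ⊢
      exact ⟨(Finset.mem_inter.1 hx.1).2, hx.2⟩
    omega
  have hp3 : p 3 = 0 := by
    rw [hp]
    simp only [Finset.card_eq_zero, Finset.filter_eq_empty_iff]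
    intro w hw hw3
    have := key w hw
    omega
  have hp4 : p 4 = 0 := by
    rw [hp]
    simp only [Finset.card_eq_zero, Finset.filter_eq_empty_iff]
    intro w hw hw3
    have := key w hw
    omega
  refine ⟨key, ?_, ?_, ?_⟩
  · rw [hZ]; show p 0 = 3; omega
  · show p 1 = 32; omega
  · show p 2 = 12; omega

theorem znb : PieceZnb.{u} := by
  intro V _ G h hNbW hK33 u v huv z hz w hw hzw
  obtain ⟨hle, hZ, -, -⟩ := hK33 u v huv
  rw [mem_Zset] at hz
  obtain ⟨hc1, hc2⟩ := hNbW u v huv z hz.1
  rw [hz.2] at hc1 hc2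
  by_contra hcon
  have hw2 : tc G u v w ≤ 1 := by
    have := hle w hw
    omega
  have hwX : w ∈ nb G z ∩ Wset G u v := by
    rw [Finset.mem_inter, mem_nb]
    exact ⟨hzw, hw⟩
  have h1 : ∑ x ∈ (nb G z ∩ Wset G u v).erase w, tc G u v x ≤
      ∑ x ∈ (nb G z ∩ Wset G u v).erase w, 2 := by
    apply Finset.sum_le_sum
    intro x hx
    exact hle x (Finset.mem_inter.1 (Finset.mem_of_mem_erase hx)).2
  rw [Finset.sum_const, Finset.card_erase_of_mem hwX, hc1, smul_eq_mul] at h1
  have h2 := Finset.sum_erase_add _ (fun x => tc G u v x) hwX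
  omega

end Cfsg.Agent.H9.S77

/-- exact-statement checks -/
example : Cfsg.Agent.H9.S77.PieceK33.{0} := Cfsg.Agent.H9.S77.k33
example : Cfsg.Agent.H9.S77.PieceZnb.{0} := Cfsg.Agent.H9.S77.znb
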