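import Mathlib
import Cfsg.Agent.H9.S77Ex

/-! # srg(77,16,0,4): the pieces PLANE and UNIQ -/

set_option autoImplicit false
open Finset

namespace Cfsg.Agent.H9.S77
open Classical

universe u
variable {V : Type u} [Fintype V] {G : SimpleGraph V}

theorem plane : PiecePlane.{u} := by
  intro V _ G h hLine hN0 hPerp u v huv o ho1 ho2
  obtain ⟨hL5, hLco, hLtri, hLcl⟩ := hLine u v huv
  set L := Ln G u v with hL
  have hNA : ∀ z ∈ L, NA G o z := fun z hz => ⟨fun hh => ho1 (hh ▸ hz), ho2 z hz⟩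
  have hdisj : ∀ z ∈ L, ∀ z' ∈ L, z ≠ z' → ∀ c, c ≠ o → c ∈ Ln G o z → c ∈ Ln G o z' → False := by
    intro z hz z' hz' hne c hco hc hc'
    have e1 := (hLine o z (hNA z hz)).2.2.2 o (left_mem_Ln o z) c hc (Ne.symm hco)
    have e2 := (hLine o z' (hNA z' hz')).2.2.2 o (left_mem_Ln o z') c hc' (Ne.symm hco)
    have e3 : Ln G o z = Ln G o z' := e1.symm.trans e2
    have hz'' : z' ∈ Ln G o z := by rw [e3]; exact right_mem_Ln o z'
    have e4 := (hLine o z (hNA z hz)).2.2.2 z (right_mem_Ln o z) z' hz'' hne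
    have e5 := hLcl z hz z' hz' hne
    apply ho1
    rw [← e5, e4]
    exact left_mem_Ln o z
  constructor
  · intro x' hx' y' hy'
    obtain ⟨z, hz, hxz⟩ := Finset.mem_biUnion.1 hx'
    obtain ⟨z', hz', hyz⟩ := Finset.mem_biUnion.1 hy'
    by_cases hne : z = z'
    · subst hne
      exact (hLine o z (hNA z hz)).2.1 x' hxz y' hyz
    · have hzz : NA G z z' := ⟨hne, hLco z hz z' hz'⟩
      have hoW : o ∈ Wset G z z' := by
        rw [mem_Wset]
        exact ⟨(hNA z hz).1, (hNA z' hz').1, fun hh => ho2 z hz hh.symm, fun hh => ho2 z' hz' hh.symm⟩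
      have e5 := hLcl z hz z' hz' hne
      have ht : tc G z z' o = 1 := by
        rw [hN0 z z' hzz o hoW, e5]
        exact ⟨ho1, ho2⟩
      have ht' : tc G o z z' = 1 := by rw [tc_rot]; exact ht
      exact hPerp o z z' (hNA z hz) (hNA z' hz') hzz ht' x' hxz y' hyz
  · have e : (L.biUnion fun z => Ln G o z) = insert o (L.biUnion fun z => (Ln G o z).erase o) := by
      ext c
      simp only [mem_biUnion, mem_insert, mem_erase]
      constructor
      · rintro ⟨z, hz, hc⟩
        by_cases hco : c = o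
        · exact Or.inl hco
        · exact Or.inr ⟨z, hz, hco, hc⟩
      · rintro (rfl | ⟨z, hz, -, hc⟩)
        · exact ⟨u, left_mem_Ln u v, left_mem_Ln c u⟩
        · exact ⟨z, hz, hc⟩
    rw [e, Finset.card_insert_of_notMem, Finset.card_biUnion]
    · have h4 : ∀ z ∈ L, ((Ln G o z).erase o).card = 4 := by
        intro z hz
        rw [Finset.card_erase_of_mem (left_mem_Ln o z), (hLine o z (hNA z hz)).1]
      rw [Finset.sum_congr rfl h4, Finset.sum_const, hL5, smul_eq_mul]
    · intro z hz z' hz' hne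
      rw [Function.onFun, Finset.disjoint_left]
      intro c hc hc'
      rw [mem_erase] at hc hc'
      exact hdisj z hz z' hz' hne c hc.1 hc.2 hc'.2
    · simp only [mem_biUnion, mem_erase, not_exists, not_and]
      intro z _ hh
      exact absurd rfl hh

theorem uniq : PieceUniq.{u} := by
  intro V _ G h hLine hPlane hSub C C' hC hC' o x y ho hx hy ho' hx' hy' hox hy0
  have hxy : NA G x y := by
    refine ⟨?_, hC.1 x hx y hy⟩
    rintro rfl
    exact hy0 (right_mem_Ln o x)
  obtain ⟨hL5, hLco, hLtri, hLcl⟩ := hLine x y hxy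
  have hLC := (hSub C hC x hx y hy hxy.1).1
  have hLC' := (hSub C' hC' x hx' y hy' hxy.1).1
  have ho1 : o ∉ Ln G x y := by
    intro hh
    have := hLcl o hh x (left_mem_Ln x y) hox
    apply hy0
    rw [this]
    exact right_mem_Ln x y
  have ho2 : ∀ s ∈ Ln G x y, ¬ G.Adj o s := fun s hs => hC.1 o ho s (hLC hs)
  have hP := hPlane x y hxy o ho1 ho2
  have hne : ∀ z ∈ Ln G x y, o ≠ z := fun z hz hh => ho1 (hh ▸ hz)
  have hPC : ((Ln G x y).biUnion fun z => Ln G o z) ⊆ C := by
    intro c hc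
    obtain ⟨z, hz, hcz⟩ := Finset.mem_biUnion.1 hc
    exact (hSub C hC o ho z (hLC hz) (hne z hz)).1 hcz
  have hPC' : ((Ln G x y).biUnion fun z => Ln G o z) ⊆ C' := by
    intro c hc
    obtain ⟨z, hz, hcz⟩ := Finset.mem_biUnion.1 hc
    exact (hSub C' hC' o ho' z (hLC' hz) (hne z hz)).1 hcz
  have e1 := Finset.eq_of_subset_of_card_le hPC (by rw [hP.2, hC.2])
  have e2 := Finset.eq_of_subset_of_card_le hPC' (by rw [hP.2, hC'.2])
  exact e1.symm.trans e2

end Cfsg.Agent.H9.S77

/-- exact-statement checks -/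
example : Cfsg.Agent.H9.S77.PiecePlane.{0} := Cfsg.Agent.H9.S77.plane
example : Cfsg.Agent.H9.S77.PieceUniq.{0} := Cfsg.Agent.H9.S77.uniq
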