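import Mathlib
import Cfsg.Agent.H10.SharpSimple

/-!
# Sharply 2-transitive groups of degree 9 (helper9)

Such a group has order 72, its Sylow 3-subgroup is normal and of exponent 3 (the regular normal
subgroup); the non-identity elements of the Sylow 3-subgroup are exactly the fixed-point-free
elements.
-/

set_option autoImplicit false

namespace Cfsg.Agent.H9

open MulAction

section Sharp2

variable {G : Type*} [Group G] {Ω : Type*} [MulAction G Ω]

theorem sharp2_fix_two (hsharp : ∀ x : Fin 2 ↪ Ω, stabilizer G x = ⊥) {g : G} {a b : Ω}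
    (hab : a ≠ b) (ha : g • a = a) (hb : g • b = b) : g = 1 := by
  let x : Fin 2 ↪ Ω := ⟨![a, b], by
    intro i j h
    fin_cases i <;> fin_cases j <;> simp_all⟩
  have h1 : g ∈ stabilizer G x := by
    rw [mem_stabilizer_iff]
    ext i
    rw [Function.Embedding.smul_apply]
    fin_cases i
    · exact ha
    · exact hb
  rwa [hsharp, Subgroup.mem_bot] at h1

theorem sharp2_card [Finite Ω] (hΩ : Nat.card Ω = 9) (h2 : IsMultiplyPretransitive G Ω 2)
    (hsharp : ∀ x : Fin 2 ↪ Ω, stabilizer G x = ⊥) : Nat.card G = 72 := by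
  haveI := Fintype.ofFinite Ω
  have hΩ' : Fintype.card Ω = 9 := by rw [← Nat.card_eq_fintype_card, hΩ]
  obtain ⟨x⟩ : Nonempty (Fin 2 ↪ Ω) :=
    Function.Embedding.nonempty_of_card_le (by rw [Fintype.card_fin, hΩ']; norm_num)
  rw [Cfsg.Agent.H10.card_of_sharp h2 hsharp x, Nat.card_eq_fintype_card,
    Fintype.card_embedding_eq, Fintype.card_fin, hΩ']
  rfl

theorem sharp2_card_stab [Finite Ω] (hΩ : Nat.card Ω = 9) (h2 : IsMultiplyPretransitive G Ω 2)
    (hsharp : ∀ x : Fin 2 ↪ Ω, stabilizer G x = ⊥) (a : Ω) : Nat.card (stabilizer G a) = 8 := by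
  have hG := sharp2_card hΩ h2 hsharp
  haveI := h2
  haveI : IsPretransitive G Ω := isPretransitive_of_is_two_pretransitive
  have h1 : Nat.card G = Nat.card (orbit G a) * Nat.card (stabilizer G a) := by
    rw [← Nat.card_prod]
    exact Nat.card_congr (orbitProdStabilizerEquivGroup G a).symm
  rw [hG, orbit_eq_univ, Nat.card_coe_set_eq, Set.ncard_univ, hΩ] at h1
  omega

/-- at most 8 elements have no fixed point -/
theorem sharp2_fpf_card_le [Finite G] [Finite Ω] (hΩ : Nat.card Ω = 9)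
    (h2 : IsMultiplyPretransitive G Ω 2) (hsharp : ∀ x : Fin 2 ↪ Ω, stabilizer G x = ⊥) :
    Set.ncard {g : G | ∀ a : Ω, g • a ≠ a} ≤ 8 := by
  classical
  haveI := Fintype.ofFinite G
  haveI := Fintype.ofFinite Ω
  have hG : Fintype.card G = 72 := by
    rw [← Nat.card_eq_fintype_card]; exact sharp2_card hΩ h2 hsharp
  have hΩ' : Fintype.card Ω = 9 := by rw [← Nat.card_eq_fintype_card, hΩ]
  let t : Ω → Finset G := fun a => (Finset.univ.filter (fun g : G => g • a = a)).erase 1
  have ht : ∀ a, (t a).card = 7 := by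
    intro a
    have h8 : (Finset.univ.filter (fun g : G => g • a = a)).card = 8 := by
      rw [← sharp2_card_stab hΩ h2 hsharp a, Nat.card_eq_fintype_card, Fintype.card_subtype]
      rfl
    have h1 : (1 : G) ∈ Finset.univ.filter (fun g : G => g • a = a) := by simp
    show ((Finset.univ.filter (fun g : G => g • a = a)).erase 1).card = 7
    rw [Finset.card_erase_of_mem h1, h8]
  have hB : (Finset.univ.biUnion t).card = 63 := by
    rw [Finset.card_biUnion]
    · simp [ht, hΩ']
    · intro a _ b _ hab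
      rw [Function.onFun, Finset.disjoint_left]
      intro g hga hgb
      have h1 := Finset.mem_erase.mp hga
      have h2' := Finset.mem_erase.mp hgb
      exact h1.1 (sharp2_fix_two hsharp hab (Finset.mem_filter.mp h1.2).2
        (Finset.mem_filter.mp h2'.2).2)
  have hcard : (insert 1 (Finset.univ.biUnion t)).card = 64 := by
    rw [Finset.card_insert_of_notMem, hB]
    simp [t]
  obtain ⟨a₀⟩ : Nonempty Ω := by
    rw [← Fintype.card_pos_iff, hΩ']; norm_num
  have hsub : Finset.univ.filter (fun g : G => ∀ a : Ω, g • a ≠ a)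
      ⊆ (insert 1 (Finset.univ.biUnion t))ᶜ := by
    intro g hg
    rw [Finset.mem_compl, Finset.mem_insert, Finset.mem_biUnion]
    have hg' := (Finset.mem_filter.mp hg).2
    rintro (rfl | ⟨a, -, ha⟩)
    · exact hg' a₀ (one_smul _ _)
    · exact hg' a (Finset.mem_filter.mp (Finset.mem_of_mem_erase ha)).2
  have h3 : (Finset.univ.filter (fun g : G => ∀ a : Ω, g • a ≠ a)).card ≤ 8 := by
    calc (Finset.univ.filter (fun g : G => ∀ a : Ω, g • a ≠ a)).card
        ≤ ((insert 1 (Finset.univ.biUnion t))ᶜ).card := Finset.card_le_card hsub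
      _ = 8 := by rw [Finset.card_compl, hG, hcard]
  have h4 : {g : G | ∀ a : Ω, g • a ≠ a}
      = ((Finset.univ.filter (fun g : G => ∀ a : Ω, g • a ≠ a) : Finset G) : Set G) := by
    ext g
    simp
  rw [h4, Set.ncard_coe_finset]
  exact h3

/-- the Sylow 3-subgroup of a sharply 2-transitive group of degree 9 -/
theorem sharp2_sylow3 [Finite G] [Finite Ω] (hΩ : Nat.card Ω = 9)
    (h2 : IsMultiplyPretransitive G Ω 2) (hsharp : ∀ x : Fin 2 ↪ Ω, stabilizer G x = ⊥)
    (Q : Sylow 3 G) :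
    (Q : Subgroup G).Normal ∧ Nat.card Q = 9 ∧ ∀ x ∈ Q, x ^ 3 = 1 := by
  classical
  haveI : Fact (Nat.Prime 3) := ⟨by norm_num⟩
  have hG := sharp2_card hΩ h2 hsharp
  have hQ : Nat.card Q = 9 := by
    rw [Sylow.card_eq_multiplicity, hG]
    have h72 : (72 : ℕ) = 2 ^ 3 * 3 ^ 2 := by norm_num
    have hf : (72 : ℕ).factorization 3 = 2 := by
      rw [h72, Nat.factorization_mul (by norm_num) (by norm_num), Nat.factorization_pow,
        Nat.factorization_pow]
      simp [Nat.Prime.factorization_self Nat.prime_three, Nat.factorization_eq_zero_of_not_dvd]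
    rw [hf]
    norm_num
  have hfpf : ∀ x ∈ Q, x ≠ 1 → ∀ a : Ω, x • a ≠ a := by
    intro x hx hx1 a hxa
    apply hx1
    have h8 : x ^ 8 = 1 := by
      have h := pow_card_eq_one' (G := stabilizer G a) (x := ⟨x, hxa⟩)
      rw [sharp2_card_stab hΩ h2 hsharp a] at h
      exact congrArg Subtype.val h
    have h9 : x ^ 9 = 1 := by
      have h := pow_card_eq_one' (G := Q) (x := ⟨x, hx⟩)
      rw [hQ] at h
      exact congrArg Subtype.val h
    calc x = x ^ 9 * (x ^ 8)⁻¹ := by group
      _ = 1 := by rw [h8, h9]; simp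
  have hF := sharp2_fpf_card_le hΩ h2 hsharp
  have hS : ({g : G | g ∈ Q ∧ g ≠ 1} : Set G).ncard = 8 := by
    have h1 : ({g : G | g ∈ Q ∧ g ≠ 1} : Set G) = ((Q : Subgroup G) : Set G) \ {1} := by
      ext g
      simp
    have h2' : (((Q : Subgroup G) : Set G)).ncard = 9 := by
      rw [← Nat.card_coe_set_eq]
      exact hQ
    rw [h1, Set.ncard_diff_singleton_of_mem (Q : Subgroup G).one_mem, h2']
  have hsub : {g : G | g ∈ Q ∧ g ≠ 1} ⊆ {g : G | ∀ a : Ω, g • a ≠ a} :=
    fun g hg => hfpf g hg.1 hg.2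
  have heq := Set.eq_of_subset_of_ncard_le hsub (by rw [hS]; exact hF) (Set.toFinite _)
  have hQset : ∀ g : G, (∀ a : Ω, g • a ≠ a) → g ∈ Q := by
    intro g hg
    have h1 : g ∈ {g : G | g ∈ Q ∧ g ≠ 1} := by rw [heq]; exact hg
    exact h1.1
  have hnormal : (Q : Subgroup G).Normal := by
    constructor
    intro x hx g
    by_cases hx1 : x = 1
    · subst hx1
      simp
    · apply hQset
      intro a ha
      apply hfpf x hx hx1 (g⁻¹ • a)
      exact eq_inv_smul_iff.mpr (by rw [← mul_smul, ← mul_smul]; exact ha)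
  refine ⟨hnormal, hQ, ?_⟩
  obtain ⟨a⟩ : Nonempty Ω := by
    rw [← Finite.card_pos_iff, hΩ]; norm_num
  obtain ⟨n, hn⟩ := exists_prime_orderOf_dvd_card' 3 (show 3 ∣ Nat.card Q by rw [hQ]; norm_num)
  have hn1 : (n : G) ≠ 1 := by
    intro h
    have h1 : n = 1 := Subtype.ext h
    rw [h1, orderOf_one] at hn
    norm_num at hn
  have hn3 : (n : G) ^ 3 = 1 := by
    have h := pow_orderOf_eq_one n
    rw [hn] at h
    exact congrArg Subtype.val h
  let f : stabilizer G a → G := fun h => (h : G) * n * (h : G)⁻¹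
  have hf : Function.Injective f := by
    intro h h' e
    have e' : (h : G) * n * (h : G)⁻¹ = (h' : G) * n * (h' : G)⁻¹ := e
    have hc : ((h' : G)⁻¹ * h) * n = n * ((h' : G)⁻¹ * h) := by
      calc (h' : G)⁻¹ * h * n = (h' : G)⁻¹ * ((h : G) * n * (h : G)⁻¹) * h := by group
        _ = (h' : G)⁻¹ * ((h' : G) * n * (h' : G)⁻¹) * h := by rw [e']
        _ = n * ((h' : G)⁻¹ * h) := by group
    have hk : ((h' : G)⁻¹ * h) • a = a := by
      rw [mul_smul, mem_stabilizer_iff.mp h.2, inv_smul_eq_iff, mem_stabilizer_iff.mp h'.2]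
    have hna : (n : G) • a ≠ a := hfpf n n.2 hn1 a
    have hk2 : ((h' : G)⁻¹ * h) • ((n : G) • a) = (n : G) • a := by
      rw [← mul_smul, hc, mul_smul, hk]
    have h1 := sharp2_fix_two hsharp (Ne.symm hna) hk hk2
    rw [inv_mul_eq_one] at h1
    exact Subtype.ext h1.symm
  have himg : Set.range f ⊆ {g : G | g ∈ Q ∧ g ≠ 1} := by
    rintro _ ⟨h, rfl⟩
    refine ⟨hnormal.conj_mem _ n.2 _, ?_⟩
    intro e
    apply hn1
    have e' : (h : G) * n * (h : G)⁻¹ = 1 := e
    calc (n : G) = (h : G)⁻¹ * ((h : G) * n * (h : G)⁻¹) * h := by group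
      _ = 1 := by rw [e']; group
  have hr : (Set.range f).ncard = 8 := by
    rw [← Nat.card_coe_set_eq, Nat.card_range_of_injective hf, sharp2_card_stab hΩ h2 hsharp a]
  have heq2 := Set.eq_of_subset_of_ncard_le himg (by rw [hS, hr]) (Set.toFinite _)
  intro x hx
  by_cases hx1 : x = 1
  · rw [hx1, one_pow]
  · have h1 : x ∈ Set.range f := by rw [heq2]; exact ⟨hx, hx1⟩
    obtain ⟨h, rfl⟩ := h1
    show ((h : G) * n * (h : G)⁻¹) ^ 3 = 1
    rw [conj_pow, hn3]
    group

end Sharp2

end Cfsg.Agent.H9
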