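import Cfsg.Agent.H9.Stc12
import Cfsg.Agent.H9.StcAut

/-! The automorphism group of an `S(5, 6, 12)` is sharply 5-transitive (helper9). -/

set_option autoImplicit false

namespace Cfsg.Agent.H9.Stc

open Cfsg Cfsg.Agent.H9 Cfsg.Agent.H34

set_option maxRecDepth 100000 in
theorem s12_noAutChk : noAutChk 12 7 s12B0 s12B0L [7, 8, 9, 10, 11] = true := by
  decide +kernel

theorem s12_noAut (h : Equiv.Perm (Fin 12)) (hfix : ∀ j : Fin 12, 12 - 5 ≤ j.val → h j = j)
    (hpres : ∀ m ∈ s12B0L, toMask h (ofMask (Equiv.refl (Fin 12)) m) ∈ s12B0L) : h = 1 :=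
  noAut_sound s12_noAutChk (by decide) (by norm_num) (by norm_num) s12_bitmap h hfix hpres

set_option maxRecDepth 100000 in
theorem s12_lt : ∀ m ∈ s12B0L, m < 2 ^ 12 := by
  decide +kernel

/-- The automorphism group of an `S(5, 6, 12)` is sharply 5-transitive. -/
theorem s12_aut {α : Type*} [Fintype α] [DecidableEq α] (hα : Fintype.card α = 12)
    {B : Set (Finset α)} (hB : IsSteinerSystem 5 6 B) :
    MulAction.IsMultiplyPretransitive (setSystemAut B) α 5 ∧
      ∀ x : Fin 5 ↪ α, MulAction.stabilizer (setSystemAut B) x = ⊥ :=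
  ⟨aut_transitive hα hB s12_b0_spec (fun e he => s12_pointed hB e he),
    fun x => aut_sharp hα hB s12_b0_spec (fun e he => s12_pointed hB e he) s12_noAut s12_lt x⟩

end Cfsg.Agent.H9.Stc
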