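import Cfsg.Agent.H9.StcMain

/-!
# A kernel-verified search for Steiner systems `S(t, k, v)`: data structures (helper9)

The chosen blocks are numbered in the order they were chosen.  `R` stores for every point `x` its
row (the set of indices of the chosen blocks through `x`, in the bits `[32 + W x, 32 + W (x+1))`).
For a set `P` of points the state `Z` holds `P` in its low 32 bits and, in the bit
`32 + W j + i`, whether the block with index `i` meets `P` in at least `j + 1` points (`j < t`).
Adding a point to `P` is a constant number of big-number operations.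
-/

set_option autoImplicit false

namespace Cfsg.Agent.H9.Stg

open Cfsg Cfsg.Agent.H9 Cfsg.Agent.H34 Cfsg.Agent.H9.Stc

/-! ## constants -/

/-- `∑_{j<t} 2^(32 + W j)` -/
def repC (W : ℕ) : ℕ → ℕ
  | 0 => 0
  | j + 1 => Nat.lor (repC W j) (Nat.shiftLeft 1 (Nat.add 32 (Nat.mul W j)))

/-- all ones in the bits `[32, 32 + W)` -/
def fullC (W : ℕ) : ℕ := Nat.shiftLeft (Nat.sub (Nat.shiftLeft 1 W) 1) 32

/-- all ones in the bits `[0, W)` -/
def rowM (W : ℕ) : ℕ := Nat.sub (Nat.shiftLeft 1 W) 1

theorem rowM_eq (W : ℕ) : rowM W = 2 ^ W - 1 := by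
  unfold rowM
  rw [shl_one]
  rfl

theorem testBit_of_lt {r W i : ℕ} (hr : r < 2 ^ W) (h : r.testBit i = true) : i < W := by
  by_contra hi
  rw [Nat.testBit_lt_two_pow (lt_of_lt_of_le hr (Nat.pow_le_pow_right (by norm_num) (not_lt.mp hi)))]
    at h
  exact absurd h (by simp)

theorem repC_succ (W j : ℕ) : repC W (j + 1) = repC W j ||| 2 ^ (32 + W * j) := by
  show Nat.lor (repC W j) (Nat.shiftLeft 1 (Nat.add 32 (Nat.mul W j))) = _
  rw [shl_one]
  rfl

theorem repC_lt (W : ℕ) (hW : 0 < W) : ∀ t, repC W t < 2 ^ (32 + W * t)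
  | 0 => by simp [repC]
  | t + 1 => by
    rw [repC_succ]
    have h1 : repC W t < 2 ^ (32 + W * (t + 1)) :=
      lt_of_lt_of_le (repC_lt W hW t) (Nat.pow_le_pow_right (by norm_num) (by nlinarith))
    have h2 : 2 ^ (32 + W * t) < 2 ^ (32 + W * (t + 1)) :=
      Nat.pow_lt_pow_right (by norm_num) (by nlinarith)
    exact Nat.or_lt_two_pow h1 h2

theorem mul_repC_lt (W : ℕ) (hW : 0 < W) (r : ℕ) (hr : r < 2 ^ W) :
    ∀ t, r * repC W t < 2 ^ (32 + W * t)
  | 0 => by simp [repC]
  | t + 1 => by
    rw [repC_succ, Nat.or_two_pow_eq_add_of_lt (repC_lt W hW t), Nat.mul_add]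
    have h1 := mul_repC_lt W hW r hr t
    have h2 : r * 2 ^ (32 + W * t) ≤ (2 ^ W - 1) * 2 ^ (32 + W * t) :=
      Nat.mul_le_mul_right _ (by omega)
    have h3 : 2 ^ (32 + W * (t + 1)) = 2 ^ W * 2 ^ (32 + W * t) := by
      rw [← pow_add]
      congr 1
      ring
    rw [h3]
    have h4 : (2 ^ W - 1) * 2 ^ (32 + W * t) + 2 ^ (32 + W * t) = 2 ^ W * 2 ^ (32 + W * t) := by
      have : 1 ≤ 2 ^ W := Nat.one_le_two_pow
      rw [Nat.sub_mul, Nat.one_mul]
      have : 2 ^ (32 + W * t) ≤ 2 ^ W * 2 ^ (32 + W * t) := Nat.le_mul_of_pos_left _ (by omega)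
      omega
    omega

theorem testBit_mul_repC (W : ℕ) (hW : 0 < W) (r : ℕ) (hr : r < 2 ^ W) (q : ℕ) :
    ∀ t, (r * repC W t).testBit q = true ↔
      32 ≤ q ∧ (q - 32) / W < t ∧ r.testBit ((q - 32) % W) = true
  | 0 => by simp [repC]
  | t + 1 => by
    rw [repC_succ, Nat.or_two_pow_eq_add_of_lt (repC_lt W hW t), Nat.mul_add, Nat.add_comm,
      ← Nat.shiftLeft_eq, Nat.shiftLeft_add_eq_or_of_lt (mul_repC_lt W hW r hr t),
      Nat.testBit_or, Bool.or_eq_true, testBit_mul_repC W hW r hr q t, Nat.testBit_shiftLeft,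
      Bool.and_eq_true, decide_eq_true_eq]
    constructor
    · rintro (⟨h1, h2⟩ | ⟨h1, h2, h3⟩)
      · have h4 : q - (32 + W * t) < W := testBit_of_lt hr h2
        have h5 : q - 32 = W * t + (q - (32 + W * t)) := by omega
        have h6 : (q - 32) / W = t := by
          rw [h5, Nat.mul_add_div hW, Nat.div_eq_of_lt h4, Nat.add_zero]
        have h7 : (q - 32) % W = q - (32 + W * t) := by
          rw [h5, Nat.mul_add_mod, Nat.mod_eq_of_lt h4]
        refine ⟨by omega, by omega, ?_⟩
        rw [h7]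
        exact h2
      · exact ⟨h1, by omega, h3⟩
    · rintro ⟨h1, h2, h3⟩
      rcases Nat.lt_succ_iff_lt_or_eq.mp h2 with h4 | h4
      · exact Or.inr ⟨h1, h4, h3⟩
      · left
        have h5 := Nat.div_add_mod (q - 32) W
        rw [h4] at h5
        have h6 : q - (32 + W * t) = (q - 32) % W := by omega
        refine ⟨by omega, ?_⟩
        rw [h6]
        exact h3

theorem testBit_fullC (W q : ℕ) : (fullC W).testBit q = true ↔ 32 ≤ q ∧ q < 32 + W := by
  unfold fullC
  show ((Nat.sub (Nat.shiftLeft 1 W) 1) <<< 32).testBit q = true ↔ _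
  rw [shl_one]
  show ((2 ^ W - 1) <<< 32).testBit q = true ↔ _
  rw [Nat.testBit_shiftLeft, Nat.testBit_two_pow_sub_one, Bool.and_eq_true, decide_eq_true_eq,
    decide_eq_true_eq]
  omega

/-! ## the numbering of the chosen blocks -/

/-- the block with index `i` (blocks are numbered in the order they were chosen) -/
def bget (bl : List ℕ) (i : ℕ) : ℕ := bl.getD (bl.length - 1 - i) 0

theorem bget_cons_lt (b : ℕ) (bl : List ℕ) {i : ℕ} (hi : i < bl.length) :
    bget (b :: bl) i = bget bl i := by
  unfold bget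
  have : (b :: bl).length - 1 - i = (bl.length - 1 - i) + 1 := by
    rw [List.length_cons]
    omega
  rw [this, List.getD_cons_succ]

theorem bget_cons_len (b : ℕ) (bl : List ℕ) : bget (b :: bl) bl.length = b := by
  unfold bget
  have : (b :: bl).length - 1 - bl.length = 0 := by
    rw [List.length_cons]
    omega
  rw [this, List.getD_cons_zero]

theorem bget_mem {bl : List ℕ} {i : ℕ} (hi : i < bl.length) : bget bl i ∈ bl := by
  unfold bget
  have h : bl.length - 1 - i < bl.length := by omega
  rw [List.getD_eq_getElem _ _ h]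
  exact List.getElem_mem h

theorem exists_bget_of_mem {bl : List ℕ} {m : ℕ} (h : m ∈ bl) :
    ∃ i, i < bl.length ∧ bget bl i = m := by
  obtain ⟨n, hn, rfl⟩ := List.getElem_of_mem h
  refine ⟨bl.length - 1 - n, by omega, ?_⟩
  unfold bget
  have : bl.length - 1 - (bl.length - 1 - n) = n := by omega
  rw [this, List.getD_eq_getElem _ _ hn]

/-! ## intersection numbers -/

/-- number of common points of two masks -/
def cnt (v P m : ℕ) : ℕ := popc v (P &&& m)

theorem cnt_eq_card (v P m : ℕ) :
    cnt v P m = (ofMask (Equiv.refl (Fin v)) P ∩ ofMask (Equiv.refl (Fin v)) m).card := by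
  unfold cnt
  rw [← card_ofMask (Equiv.refl (Fin v)), ofMask_and]

theorem cnt_zero (v m : ℕ) : cnt v 0 m = 0 := by
  rw [cnt_eq_card, ofMask_zero]
  simp

theorem cnt_mono (v m : ℕ) {P P' : ℕ} (h : ∀ y, P.testBit y = true → P'.testBit y = true) :
    cnt v P m ≤ cnt v P' m := by
  rw [cnt_eq_card, cnt_eq_card]
  apply Finset.card_le_card
  apply Finset.inter_subset_inter_right
  intro a ha
  rw [mem_ofMask] at ha ⊢
  exact h _ ha

theorem cnt_or_pow (v P m x : ℕ) (hx : x < v) (hP : P.testBit x = false) :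
    cnt v (P ||| 2 ^ x) m = cnt v P m + (if m.testBit x = true then 1 else 0) := by
  rw [cnt_eq_card, cnt_eq_card, ofMask_or, Finset.union_inter_distrib_right]
  have hdisj : Disjoint (ofMask (Equiv.refl (Fin v)) P ∩ ofMask (Equiv.refl (Fin v)) m)
      (ofMask (Equiv.refl (Fin v)) (2 ^ x) ∩ ofMask (Equiv.refl (Fin v)) m) := by
    rw [Finset.disjoint_left]
    intro a ha ha'
    rw [Finset.mem_inter, mem_ofMask] at ha ha'
    have h1 := ha'.1
    rw [Nat.testBit_two_pow, decide_eq_true_eq] at h1
    have h2 := ha.1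
    rw [Equiv.refl_apply] at h1 h2
    rw [← h1, hP] at h2
    exact absurd h2 (by simp)
  rw [Finset.card_union_of_disjoint hdisj]
  congr 1
  have h2 : ofMask (Equiv.refl (Fin v)) (2 ^ x) = {⟨x, hx⟩} := by
    have := ofMask_two_pow (Equiv.refl (Fin v)) ⟨x, hx⟩
    simpa using this
  rw [h2]
  by_cases hm : m.testBit x = true
  · rw [if_pos hm]
    have : ({⟨x, hx⟩} : Finset (Fin v)) ∩ ofMask (Equiv.refl (Fin v)) m = {⟨x, hx⟩} := by
      rw [Finset.inter_eq_left, Finset.singleton_subset_iff, mem_ofMask]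
      exact hm
    rw [this, Finset.card_singleton]
  · rw [if_neg hm]
    have : ({⟨x, hx⟩} : Finset (Fin v)) ∩ ofMask (Equiv.refl (Fin v)) m = ∅ := by
      rw [Finset.singleton_inter_of_notMem]
      rw [mem_ofMask]
      exact hm
    rw [this, Finset.card_empty]

/-! ## the state -/

/-- the row of the point `x` -/
def rowOf (W ROWM R x : ℕ) : ℕ := Nat.land (Nat.shiftRight R (Nat.add 32 (Nat.mul W x))) ROWM

/-- add the point `x` (with row `r`) to the state `Z` -/
def addPt (W FULL REP Z r x : ℕ) : ℕ :=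
  Nat.lor (Nat.lor Z (Nat.land (Nat.lor (Nat.shiftLeft Z W) FULL) (Nat.mul r REP)))
    (Nat.shiftLeft 1 x)

/-- `R` holds the rows of the points for the chosen blocks `bl` -/
def RInv (W v : ℕ) (bl : List ℕ) (R : ℕ) : Prop :=
  ∀ x, x < v → ∀ i, i < W →
    (R.testBit (32 + W * x + i) = true ↔ i < bl.length ∧ (bget bl i).testBit x = true)

/-- `Z` is the state of the point set `P` -/
def ZInv (W v t : ℕ) (bl : List ℕ) (Z P : ℕ) : Prop :=
  (∀ y, y < 32 → Z.testBit y = P.testBit y) ∧
  ∀ q, 32 ≤ q → (Z.testBit q = true ↔ (q - 32) / W < t ∧ (q - 32) % W < bl.length ∧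
    (q - 32) / W + 1 ≤ cnt v P (bget bl ((q - 32) % W)))

/-- `U` marks the base positions of the rows of the points of `P` -/
def UInv (W : ℕ) (U P : ℕ) : Prop :=
  ∀ q, U.testBit q = true ↔ ∃ x, P.testBit x = true ∧ q = 32 + W * x

theorem testBit_rowOf {W v : ℕ} {bl : List ℕ} {R : ℕ} (hR : RInv W v bl R)
    (hn : bl.length ≤ W) {x : ℕ} (hx : x < v) (i : ℕ) :
    (rowOf W (rowM W) R x).testBit i = true ↔ i < bl.length ∧ (bget bl i).testBit x = true := by
  unfold rowOf
  show ((R >>> (32 + W * x)) &&& rowM W).testBit i = true ↔ _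
  rw [rowM_eq, Nat.testBit_and, Nat.testBit_shiftRight, Nat.testBit_two_pow_sub_one,
    Bool.and_eq_true, decide_eq_true_eq]
  constructor
  · rintro ⟨h1, h2⟩
    exact (hR x hx i h2).mp h1
  · intro h
    have hi : i < W := lt_of_lt_of_le h.1 hn
    exact ⟨(hR x hx i hi).mpr h, hi⟩

theorem rowOf_lt (W R x : ℕ) : rowOf W (rowM W) R x < 2 ^ W := by
  unfold rowOf
  show (R >>> (32 + W * x)) &&& rowM W < 2 ^ W
  rw [rowM_eq]
  have h1 : (R >>> (32 + W * x)) &&& (2 ^ W - 1) ≤ 2 ^ W - 1 := Nat.and_le_right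
  have h2 : 0 < 2 ^ W := Nat.two_pow_pos W
  omega

theorem ZInv_zero (W v t : ℕ) (bl : List ℕ) : ZInv W v t bl 0 0 := by
  refine ⟨fun y _ => rfl, fun q _ => ?_⟩
  rw [Nat.zero_testBit]
  simp [cnt_zero]

theorem addPt_inv {W v t : ℕ} {bl : List ℕ} {R Z P x : ℕ} (hW : 0 < W)
    (hn : bl.length + 32 ≤ W) (hR : RInv W v bl R) (hZ : ZInv W v t bl Z P) (hx : x < v)
    (hv : v ≤ 32) (hPx : P.testBit x = false) :
    ZInv W v t bl (addPt W (fullC W) (repC W t) Z (rowOf W (rowM W) R x) x) (P ||| 2 ^ x) := by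
  have hrow := fun i => testBit_rowOf hR (by omega : bl.length ≤ W) hx i
  have hrep := fun q => testBit_mul_repC W hW _ (rowOf_lt W R x) q t
  have key : ∀ q, (addPt W (fullC W) (repC W t) Z (rowOf W (rowM W) R x) x).testBit q =
      ((Z.testBit q || (((decide (q ≥ W) && Z.testBit (q - W)) || (fullC W).testBit q) &&
        (rowOf W (rowM W) R x * repC W t).testBit q)) || (2 ^ x).testBit q) := by
    intro q
    unfold addPt
    show (Z ||| ((Z <<< W ||| fullC W) &&& (rowOf W (rowM W) R x * repC W t))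
      ||| 1 <<< x).testBit q = _
    rw [Nat.one_shiftLeft, Nat.testBit_or, Nat.testBit_or, Nat.testBit_and, Nat.testBit_or,
      Nat.testBit_shiftLeft]
  constructor
  · intro y hy
    rw [key, Nat.testBit_or]
    have h1 : (rowOf W (rowM W) R x * repC W t).testBit y = false := by
      by_contra h
      have h' : (rowOf W (rowM W) R x * repC W t).testBit y = true := by simpa using h
      have := ((hrep y).mp h').1
      omega
    rw [h1, Bool.and_false, Bool.or_false, hZ.1 y hy]
  · intro q hq
    rw [key]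
    have h2x : (2 ^ x).testBit q = false := by
      rw [Nat.testBit_two_pow]
      simp
      omega
    rw [h2x, Bool.or_false, Bool.or_eq_true, Bool.and_eq_true, Bool.or_eq_true,
      Bool.and_eq_true, decide_eq_true_eq, hZ.2 q hq, hrep q, testBit_fullC, hrow,
      cnt_or_pow v P _ x hx hPx]
    by_cases hj0 : (q - 32) / W = 0
    · have hqW : q < 32 + W := by
        have h1 := Nat.div_add_mod (q - 32) W
        rw [hj0] at h1
        have h2 := Nat.mod_lt (q - 32) hW
        omega
      constructor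
      · rintro (⟨h1, h2, h3⟩ | ⟨-, -, h2, h3, h4⟩)
        · exact ⟨h1, h2, by omega⟩
        · refine ⟨h2, h3, ?_⟩
          rw [if_pos h4, hj0]
          omega
      · rintro ⟨h1, h2, h3⟩
        by_cases hb : (bget bl ((q - 32) % W)).testBit x = true
        · exact Or.inr ⟨Or.inr ⟨hq, hqW⟩, hq, h1, h2, hb⟩
        · rw [if_neg hb] at h3
          exact Or.inl ⟨h1, h2, h3⟩
    · have hqW : 32 + W ≤ q := by
        by_contra h
        apply hj0
        apply Nat.div_eq_of_lt
        omega
      have hjm : (q - W - 32) / W = (q - 32) / W - 1 := by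
        have h1 : q - W - 32 = q - 32 - W := by omega
        rw [h1, Nat.div_eq_sub_div hW (by omega : W ≤ q - 32), Nat.add_sub_cancel]
      have him : (q - W - 32) % W = (q - 32) % W := by
        have h1 : q - W - 32 = q - 32 - W := by omega
        rw [h1]
        exact (Nat.mod_eq_sub_mod (by omega : q - 32 ≥ W)).symm
      have hZW := hZ.2 (q - W) (by omega)
      rw [hjm, him] at hZW
      constructor
      · rintro (⟨h1, h2, h3⟩ | ⟨h5, -, h2, h3, h4⟩)
        · exact ⟨h1, h2, by omega⟩
        · refine ⟨h2, h3, ?_⟩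
          rw [if_pos h4]
          rcases h5 with ⟨-, h6⟩ | ⟨-, h6⟩
          · have := (hZW.mp h6).2.2
            omega
          · omega
      · rintro ⟨h1, h2, h3⟩
        by_cases hb : (bget bl ((q - 32) % W)).testBit x = true
        · rw [if_pos hb] at h3
          by_cases hc : (q - 32) / W + 1 ≤ cnt v P (bget bl ((q - 32) % W))
          · exact Or.inl ⟨h1, h2, hc⟩
          · right
            exact ⟨Or.inl ⟨by omega, hZW.mpr ⟨by omega, h2, by omega⟩⟩, hq, h1, h2, hb⟩
        · rw [if_neg hb] at h3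
          exact Or.inl ⟨h1, h2, h3⟩

/-- the test "no chosen block meets `P` in `t` points" -/
theorem bad_iff {W v t : ℕ} {bl : List ℕ} {Z P : ℕ} (hW : 0 < W) (ht : 0 < t)
    (hn : bl.length ≤ W) (hZ : ZInv W v t bl Z P) :
    Nat.beq (Nat.shiftRight Z (Nat.add 32 (Nat.mul W (Nat.sub t 1)))) 0 = true ↔
      ∀ i, i < bl.length → cnt v P (bget bl i) < t := by
  show Nat.beq (Z >>> (32 + W * (t - 1))) 0 = true ↔ _
  constructor
  · intro h i hi
    have h0 : Z >>> (32 + W * (t - 1)) = 0 := Nat.eq_of_beq_eq_true h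
    by_contra hcnt
    have hiW : i < W := lt_of_lt_of_le hi hn
    have hbit : Z.testBit (32 + W * (t - 1) + i) = true := by
      rw [hZ.2 _ (by omega)]
      have h1 : 32 + W * (t - 1) + i - 32 = W * (t - 1) + i := by omega
      rw [h1, Nat.mul_add_div hW, Nat.div_eq_of_lt hiW, Nat.mul_add_mod, Nat.mod_eq_of_lt hiW]
      exact ⟨by omega, hi, by omega⟩
    have : (Z >>> (32 + W * (t - 1))).testBit i = true := by
      rw [Nat.testBit_shiftRight]
      exact hbit
    rw [h0] at this
    simp at this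
  · intro h
    have h0 : Z >>> (32 + W * (t - 1)) = 0 := by
      apply Nat.eq_of_testBit_eq
      intro p
      rw [Nat.zero_testBit, Nat.testBit_shiftRight]
      by_contra hb
      have hb' : Z.testBit (32 + W * (t - 1) + p) = true := by simpa using hb
      obtain ⟨h1, h2, h3⟩ := (hZ.2 _ (by omega)).mp hb'
      have h4 : 32 + W * (t - 1) + p - 32 = W * (t - 1) + p := by omega
      rw [h4] at h1 h2 h3
      have h5 : t - 1 ≤ (W * (t - 1) + p) / W := by
        rw [Nat.mul_add_div hW]
        exact Nat.le_add_right _ _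
      have := h ((W * (t - 1) + p) % W) h2
      omega
    rw [h0]
    rfl

theorem land_mask32 {W v t : ℕ} {bl : List ℕ} {Z P : ℕ} (hZ : ZInv W v t bl Z P)
    (hP : P < 2 ^ 32) : Nat.land Z 4294967295 = P := by
  show Z &&& 4294967295 = P
  apply Nat.eq_of_testBit_eq
  intro y
  rw [Nat.testBit_and, show (4294967295 : ℕ) = 2 ^ 32 - 1 by norm_num,
    Nat.testBit_two_pow_sub_one]
  by_cases hy : y < 32
  · simp [hy, hZ.1 y hy]
  · have := Nat.testBit_lt_two_pow
      (lt_of_lt_of_le hP (Nat.pow_le_pow_right (by norm_num) (not_lt.mp hy)))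
    simp [hy, this]

theorem UInv_zero (W : ℕ) : UInv W 0 0 := by
  intro q
  simp

theorem UInv_add {W U P x : ℕ} (h : UInv W U P) :
    UInv W (Nat.lor U (Nat.shiftLeft 1 (Nat.add 32 (Nat.mul W x)))) (P ||| 2 ^ x) := by
  intro q
  rw [shl_one]
  show (U ||| 2 ^ (32 + W * x)).testBit q = true ↔ _
  rw [Nat.testBit_or, Bool.or_eq_true, h q, Nat.testBit_two_pow, decide_eq_true_eq]
  constructor
  · rintro (⟨y, hy, rfl⟩ | h1)
    · exact ⟨y, by rw [Nat.testBit_or, hy]; rfl, rfl⟩
    · exact ⟨x, by rw [Nat.testBit_or, Nat.testBit_two_pow]; simp, h1.symm⟩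
  · rintro ⟨y, hy, rfl⟩
    rw [Nat.testBit_or, Nat.testBit_two_pow, Bool.or_eq_true, decide_eq_true_eq] at hy
    rcases hy with hy | hy
    · exact Or.inl ⟨y, hy, rfl⟩
    · exact Or.inr (by rw [hy])

/-- the rows after adding the block `b` (with point marks `U`) as block number `n` -/
def rNext (R U n b : ℕ) : ℕ :=
  Nat.xor (Nat.lor R (Nat.shiftLeft U n)) (Nat.land (Nat.mul b 2654435761) 4294967295)

theorem RInv_next {W v : ℕ} {bl : List ℕ} {R U b : ℕ} (hW : 0 < W) (hn : bl.length < W)
    (hR : RInv W v bl R) (hU : UInv W U b) : RInv W v (b :: bl) (rNext R U bl.length b) := by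
  intro x hx i hi
  unfold rNext
  show ((R ||| U <<< bl.length) ^^^ (Nat.mul b 2654435761 &&& 4294967295)).testBit
    (32 + W * x + i) = true ↔ _
  have h32 : (Nat.mul b 2654435761 &&& 4294967295).testBit (32 + W * x + i) = false := by
    have := Stc.testBit_low32 (Nat.mul b 2654435761) (W * x + i)
    rw [show W * x + i + 32 = 32 + W * x + i by omega] at this
    exact this
  rw [Nat.testBit_xor, h32, Bool.xor_false, Nat.testBit_or, Bool.or_eq_true, hR x hx i hi,
    Nat.testBit_shiftLeft, Bool.and_eq_true, decide_eq_true_eq, hU, List.length_cons]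
  constructor
  · rintro (⟨h1, h2⟩ | ⟨h1, y, hy, h2⟩)
    · exact ⟨by omega, by rw [bget_cons_lt b bl h1]; exact h2⟩
    · have h3 : W * x + i = W * y + bl.length := by omega
      have h4 : (W * x + i) / W = (W * y + bl.length) / W := by rw [h3]
      rw [Nat.mul_add_div hW, Nat.mul_add_div hW, Nat.div_eq_of_lt hi, Nat.div_eq_of_lt hn] at h4
      have h5 : x = y := by omega
      have h6 : i = bl.length := by
        rw [h5] at h3
        omega
      rw [h6, h5, bget_cons_len]
      exact ⟨by omega, hy⟩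
  · rintro ⟨h1, h2⟩
    rcases Nat.lt_succ_iff_lt_or_eq.mp h1 with h3 | h3
    · left
      rw [bget_cons_lt b bl h3] at h2
      exact ⟨h3, h2⟩
    · right
      rw [h3, bget_cons_len] at h2
      exact ⟨by omega, x, h2, by omega⟩

/-! ## population counts -/

theorem popc_succ_top : ∀ (n m : ℕ), popc (n + 1) m = popc n m + (if m.testBit n = true then 1 else 0)
  | 0, m => by
    simp only [popc, Nat.add_zero, Nat.zero_add, Nat.testBit_zero, decide_eq_true_eq]
    rcases Nat.mod_two_eq_zero_or_one m with h | h <;> simp [h]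
  | n + 1, m => by
    have h1 : popc (n + 1 + 1) m = m % 2 + popc (n + 1) (m / 2) := rfl
    have h2 : popc (n + 1) m = m % 2 + popc n (m / 2) := rfl
    rw [h1, popc_succ_top n (m / 2), h2, Nat.testBit_succ]
    omega

theorem testBit_of_popc_zero : ∀ (x m : ℕ), popc x m = 0 → ∀ y, y < x → m.testBit y = false
  | 0, _, _, y, hy => absurd hy (Nat.not_lt_zero y)
  | x + 1, m, h, y, hy => by
    rw [popc_succ_top] at h
    rcases Nat.lt_succ_iff_lt_or_eq.mp hy with h1 | h1
    · exact testBit_of_popc_zero x m (by omega) y h1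
    · by_contra hb
      have hb' : m.testBit x = true := by
        rw [h1] at hb
        simpa using hb
      rw [if_pos hb'] at h
      omega

theorem exists_top_of_popc : ∀ (x m j : ℕ), popc x m = j + 1 →
    ∃ x', x' < x ∧ m.testBit x' = true ∧ (∀ y, x' < y → y < x → m.testBit y = false) ∧
      popc x' m = j
  | 0, m, j, h => by simp [popc] at h
  | x + 1, m, j, h => by
    rw [popc_succ_top] at h
    by_cases hb : m.testBit x = true
    · rw [if_pos hb] at h
      exact ⟨x, Nat.lt_succ_self x, hb, fun y h1 h2 => by omega, by omega⟩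
    · rw [if_neg hb] at h
      obtain ⟨x', h1, h2, h3, h4⟩ := exists_top_of_popc x m j h
      refine ⟨x', by omega, h2, fun y hy1 hy2 => ?_, h4⟩
      rcases Nat.lt_succ_iff_lt_or_eq.mp hy2 with h5 | h5
      · exact h3 y hy1 h5
      · rw [h5]
        simpa using hb

/-! ## folding a list of points -/

/-- the mask `P` with the points `pts` added -/
def orPts : List ℕ → ℕ → ℕ
  | [], P => P
  | x :: xs, P => orPts xs (P ||| 2 ^ x)

theorem testBit_orPts : ∀ (pts : List ℕ) (P y : ℕ),
    (orPts pts P).testBit y = true ↔ P.testBit y = true ∨ y ∈ pts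
  | [], P, y => by simp [orPts]
  | x :: xs, P, y => by
    rw [orPts, testBit_orPts xs, Nat.testBit_or, Nat.testBit_two_pow, Bool.or_eq_true,
      decide_eq_true_eq, List.mem_cons]
    constructor
    · rintro ((h | h) | h)
      · exact Or.inl h
      · exact Or.inr (Or.inl h.symm)
      · exact Or.inr (Or.inr h)
    · rintro (h | h | h)
      · exact Or.inl (Or.inl h)
      · exact Or.inl (Or.inr h.symm)
      · exact Or.inr h

/-- fold the points `pts` into the state -/
def addPts (W FULL REP ROWM R : ℕ) : List ℕ → ℕ → ℕ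
  | [], Z => Z
  | x :: xs, Z => addPts W FULL REP ROWM R xs (addPt W FULL REP Z (rowOf W ROWM R x) x)

theorem addPts_inv {W v t : ℕ} {bl : List ℕ} {R : ℕ} (hW : 0 < W) (hn : bl.length + 32 ≤ W)
    (hR : RInv W v bl R) (hv : v ≤ 32) : ∀ (pts : List ℕ) (Z P : ℕ), ZInv W v t bl Z P →
      (∀ x ∈ pts, x < v) → pts.Nodup → (∀ x ∈ pts, P.testBit x = false) →
      ZInv W v t bl (addPts W (fullC W) (repC W t) (rowM W) R pts Z) (orPts pts P)
  | [], Z, P, hZ, _, _, _ => hZ
  | x :: xs, Z, P, hZ, h1, h2, h3 => by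
    rw [addPts, orPts]
    have hx : x < v := h1 x (List.mem_cons_self ..)
    have hPx : P.testBit x = false := h3 x (List.mem_cons_self ..)
    refine addPts_inv hW hn hR hv xs _ _ (addPt_inv hW hn hR hZ hx hv hPx)
      (fun y hy => h1 y (List.mem_cons_of_mem _ hy)) (List.nodup_cons.mp h2).2 ?_
    intro y hy
    rw [Nat.testBit_or, Nat.testBit_two_pow, h3 y (List.mem_cons_of_mem _ hy)]
    have : x ≠ y := by
      intro hxy
      rw [hxy] at h2
      exact (List.nodup_cons.mp h2).1 hy
    simp [this]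

/-- the marks of the points `pts` -/
def uPts (W : ℕ) : List ℕ → ℕ → ℕ
  | [], U => U
  | x :: xs, U => uPts W xs (Nat.lor U (Nat.shiftLeft 1 (Nat.add 32 (Nat.mul W x))))

theorem uPts_inv {W : ℕ} : ∀ (pts : List ℕ) (U P : ℕ), UInv W U P →
    UInv W (uPts W pts U) (orPts pts P)
  | [], _, _, h => h
  | x :: xs, U, P, h => by
    rw [uPts, orPts]
    exact uPts_inv xs _ _ (UInv_add h)

/-! ## the search -/

/-- try to add the point `x` -/
def tryPt (W FULL REP ROWM cs R nb : ℕ)
    (deeper : ℕ → ℕ → ℕ → Option (List ℕ) → Option (List ℕ)) (x Z U : ℕ)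
    (acc : Option (List ℕ)) : Option (List ℕ) :=
  match acc with
  | none => none
  | some certs =>
      cond (tb Z x) (some certs)
        (frc (addPt W FULL REP Z (rowOf W ROWM R x) x) (fun Z' =>
          cond (Nat.beq (Nat.shiftRight Z' cs) 0 && okCell (Nat.land Z' 4294967295) nb)
            (deeper x Z' (Nat.lor U (Nat.shiftLeft 1 (Nat.add 32 (Nat.mul W x)))) (some certs))
            (some certs)))

/-- try the points below `n` (largest first) -/
def ptsLoop (W FULL REP ROWM cs R nb : ℕ)
    (deeper : ℕ → ℕ → ℕ → Option (List ℕ) → Option (List ℕ)) (Z U : ℕ) :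
    ℕ → Option (List ℕ) → Option (List ℕ)
  | 0, acc => acc
  | x + 1, acc =>
      ptsLoop W FULL REP ROWM cs R nb deeper Z U x (tryPt W FULL REP ROWM cs R nb deeper x Z U acc)

/-- extend the point set by `j` more points below `x` -/
def ext (W FULL REP ROWM cs R nb : ℕ)
    (final : ℕ → ℕ → Option (List ℕ) → Option (List ℕ)) :
    ℕ → ℕ → ℕ → ℕ → Option (List ℕ) → Option (List ℕ)
  | 0, _, Z, U, acc => final Z U acc
  | j + 1, x, Z, U, acc =>
      ptsLoop W FULL REP ROWM cs R nb
        (fun x' Z' U' acc' => ext W FULL REP ROWM cs R nb final j x' Z' U' acc') Z U x acc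

/-- the child node for the completed block -/
def finalStep (R n nb : ℕ) (bl : List ℕ)
    (rec : ℕ → List ℕ → ℕ → ℕ → List ℕ → Option (List ℕ)) (Z U : ℕ)
    (acc : Option (List ℕ)) : Option (List ℕ) :=
  match acc with
  | none => none
  | some certs =>
      frc (Nat.land Z 4294967295) (fun b =>
        frc (rNext R U n b) (fun R' =>
          frc (splitC nb b) (fun nb' => rec R' (b :: bl) (Nat.succ n) nb' certs)))

/-- the search -/
def srch (W FULL REP ROWM cs v k0 B0 N kt : ℕ) :
    List (List ℕ) → ℕ → List ℕ → ℕ → ℕ → List ℕ → Option (List ℕ)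
  | [], _, bl, _, _, certs =>
      match certs with
      | [] => none
      | c :: cs' => cond (leafOK v k0 B0 N c bl) (some cs') none
  | pts :: rest, R, bl, n, nb, certs =>
      frc (addPts W FULL REP ROWM R pts 0) (fun Z =>
        cond (Nat.beq (Nat.shiftRight Z cs) 0)
          (cond (okCell (Nat.land Z 4294967295) nb)
            (ext W FULL REP ROWM cs R nb
              (finalStep R n nb bl (fun R' bl' n' nb' certs' =>
                srch W FULL REP ROWM cs v k0 B0 N kt rest R' bl' n' nb' certs'))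
              kt v Z (uPts W pts 0) (some certs))
            none)
          (srch W FULL REP ROWM cs v k0 B0 N kt rest R bl n nb certs))

/-- the search, with the constants computed first -/
def srchTop (W v t k k0 B0 N : ℕ) (todo : List (List ℕ)) (R : ℕ) (bl : List ℕ) (n nb : ℕ)
    (certs : List ℕ) : Option (List ℕ) :=
  frc (fullC W) (fun FULL => frc (repC W t) (fun REP => frc (rowM W) (fun ROWM =>
    srch W FULL REP ROWM (Nat.add 32 (Nat.mul W (Nat.sub t 1))) v k0 B0 N (Nat.sub k t) todo R bl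
      n nb certs)))

theorem srchTop_eq (W v t k k0 B0 N : ℕ) (todo : List (List ℕ)) (R : ℕ) (bl : List ℕ) (n nb : ℕ)
    (certs : List ℕ) : srchTop W v t k k0 B0 N todo R bl n nb certs =
      srch W (fullC W) (repC W t) (rowM W) (Nat.add 32 (Nat.mul W (Nat.sub t 1))) v k0 B0 N
        (Nat.sub k t) todo R bl n nb certs := by
  unfold srchTop
  rw [frc_eq, frc_eq, frc_eq]

theorem ptsLoop_none (W FULL REP ROWM cs R nb : ℕ)
    (deeper : ℕ → ℕ → ℕ → Option (List ℕ) → Option (List ℕ)) (Z U : ℕ) :
    ∀ n : ℕ, ptsLoop W FULL REP ROWM cs R nb deeper Z U n none = none := by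
  intro n
  induction n with
  | zero => rfl
  | succ n ih =>
    rw [ptsLoop]
    exact ih

theorem ptsLoop_some (W FULL REP ROWM cs R nb : ℕ)
    (deeper : ℕ → ℕ → ℕ → Option (List ℕ) → Option (List ℕ)) (Z U : ℕ) :
    ∀ (n : ℕ) (acc : Option (List ℕ)) (c : List ℕ),
      ptsLoop W FULL REP ROWM cs R nb deeper Z U n acc = some c → ∀ x, x < n →
      tb Z x = false →
      Nat.beq (Nat.shiftRight (addPt W FULL REP Z (rowOf W ROWM R x) x) cs) 0 = true →
      okCell (Nat.land (addPt W FULL REP Z (rowOf W ROWM R x) x) 4294967295) nb = true →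
      ∃ c1 c2, deeper x (addPt W FULL REP Z (rowOf W ROWM R x) x)
        (Nat.lor U (Nat.shiftLeft 1 (Nat.add 32 (Nat.mul W x)))) (some c1) = some c2 := by
  intro n
  induction n with
  | zero =>
    intro _ _ _ x hx
    exact absurd hx (Nat.not_lt_zero _)
  | succ n ih =>
    intro acc c h x hx h1 h2 h3
    rw [ptsLoop] at h
    rcases Nat.lt_succ_iff_lt_or_eq.mp hx with hx' | rfl
    · exact ih _ c h x hx' h1 h2 h3
    · cases hk : tryPt W FULL REP ROWM cs R nb deeper x Z U acc with
      | none =>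
        rw [hk, ptsLoop_none] at h
        exact absurd h (by simp)
      | some c2 =>
        cases acc with
        | none =>
          exact absurd hk (by simp [tryPt])
        | some c1 =>
          simp only [tryPt, h1, cond_false, frc_eq, h2, h3, Bool.and_self, cond_true] at hk
          exact ⟨c1, c2, hk⟩

end Cfsg.Agent.H9.Stg
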