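import Cfsg.Agent.H9.StgMain

/-! Data and kernel checks for the search for `S(2, 5, 21)` (generated by helper9's
`scratch/gen_stg.py`). -/

set_option autoImplicit false

namespace Cfsg.Agent.H9.Stg

open Cfsg Cfsg.Agent.H9 Cfsg.Agent.H34 Cfsg.Agent.H9.Stc

set_option maxRecDepth 100000 in
/-- the standard system `S(2, 5, 21)`, as a decreasing list of masks -/
def w21L : List ℕ := [2031616, 1110016, 1052416, 1048816, 1048591, 559240, 541764, 533026, 528657, 295969, 280594, 270724, 266824, 164372, 147752, 141377, 136322, 98626, 82561, 74776, 71716]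

set_option maxRecDepth 100000 in
/-- the `2`-sets at which the search branches -/
def w21Todo : List (List ℕ) := [[20, 19], [20, 15], [20, 11], [20, 7], [20, 3], [19, 15], [19, 14], [19, 13], [19, 12], [18, 15], [18, 14], [18, 13], [18, 12], [17, 15], [17, 14], [17, 13], [17, 12], [16, 15], [16, 14], [16, 13], [16, 12]]

/-- the leaf certificates -/
def w21Certs : List ℕ := [0x149ca307b9ac5a928398a418820, 0x149ca117b9ac5a928398a418820, 0x149ca305a9287b9ac398a418820, 0x149ca115a9287b9ac398a418820, 0x149c6505a9287b9ac398a418820, 0x149c6125a9287b9ac398a418820, 0x149c6507b9ac5a928398a418820, 0x149c6127b9ac5a928398a418820, 0x149c2517b9ac5a928398a418820, 0x149c2327b9ac5a928398a418820, 0x149c2515a9287b9ac398a418820, 0x149c2325a9287b9ac398a418820]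

set_option maxRecDepth 100000 in
theorem w21_search :
    (srchInit 256 21 2 5 0 21 w21L w21Todo [] 1048575 w21Certs).isSome = true := by
  decide +kernel

set_option maxRecDepth 100000 in
theorem w21_todo : w21Todo.all (ptsOK 21 2) = true := by
  decide +kernel

/-- Uniqueness of the projective plane of order `4`: every Steiner system `S(2, 5, 21)` is the
standard one for a suitable numbering of the points. -/
theorem w21_std {α : Type*} [Fintype α] [DecidableEq α] (hα : Fintype.card α = 21)
    {B : Set (Finset α)} (hB : IsSteinerSystem 2 5 B) :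
    ∃ e : α ≃ Fin 21, ∀ b : Finset α, b ∈ B ↔ toMask e b ∈ w21L := by
  obtain ⟨e', -, he'⟩ := std_of_search (k0 := 0) (nb0 := 1048575) w21_search (by norm_num)
    (by norm_num) (by norm_num) (by norm_num) (by decide +kernel) (by decide +kernel)
    (by decide +kernel) w21_todo (by decide +kernel) (by decide +kernel) (by norm_num) hB
    (Fintype.equivFinOfCardEq hα) (fun m hm => absurd hm (by simp))
  exact ⟨e', he'⟩

end Cfsg.Agent.H9.Stg
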