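import Cfsg.Agent.H9.StgSound
import Cfsg.Agent.H9.StcFin

/-!
# Standard numberings of Steiner systems from a successful search (helper9)

`std_of_search`: a successful run of `Stg.srch` shows that every Steiner system `S(t, k, v)`
containing the initial blocks is the standard one, for a suitable numbering.
`std_ext`: the same for the one-point extensions of a system that is already known to be unique,
through the derived design.
-/

set_option autoImplicit false
set_option linter.unusedSectionVars false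

namespace Cfsg.Agent.H9.Stg

open Cfsg Cfsg.Agent.H9 Cfsg.Agent.H34 Cfsg.Agent.H9.Stc

/-! ## initial state -/

/-- the marks of the points of the block `b` -/
def uOfMask (W : ℕ) : ℕ → ℕ → ℕ
  | 0, _ => 0
  | x + 1, b =>
      Nat.lor (cond (tb b x) (Nat.shiftLeft 1 (Nat.add 32 (Nat.mul W x))) 0) (uOfMask W x b)

theorem testBit_uOfMask (W b : ℕ) : ∀ (v q : ℕ), (uOfMask W v b).testBit q = true ↔
    ∃ x, x < v ∧ b.testBit x = true ∧ q = 32 + W * x
  | 0, q => by simp [uOfMask]
  | v + 1, q => by
    rw [uOfMask]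
    show ((cond (tb b v) (Nat.shiftLeft 1 (Nat.add 32 (Nat.mul W v))) 0) |||
      uOfMask W v b).testBit q = true ↔ _
    rw [Nat.testBit_or, Bool.or_eq_true, testBit_uOfMask W b v q, tb_eq, shl_one]
    cases hb : b.testBit v
    · simp only [cond_false, Nat.zero_testBit, Bool.false_eq_true, false_or]
      constructor
      · rintro ⟨x, hx, h⟩
        exact ⟨x, Nat.lt_succ_of_lt hx, h⟩
      · rintro ⟨x, hx, h1, h2⟩
        rcases Nat.lt_succ_iff_lt_or_eq.mp hx with h3 | rfl
        · exact ⟨x, h3, h1, h2⟩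
        · rw [hb] at h1
          exact absurd h1 (by simp)
    · simp only [cond_true, Nat.testBit_two_pow, decide_eq_true_eq]
      constructor
      · rintro (h | ⟨x, hx, h⟩)
        · exact ⟨v, Nat.lt_succ_self v, hb, h.symm⟩
        · exact ⟨x, Nat.lt_succ_of_lt hx, h⟩
      · rintro ⟨x, hx, h1, h2⟩
        rcases Nat.lt_succ_iff_lt_or_eq.mp hx with h3 | rfl
        · exact Or.inr ⟨x, h3, h1, h2⟩
        · exact Or.inl h2.symm

theorem uOfMask_inv (W v b : ℕ) (hb : b < 2 ^ v) : UInv W (uOfMask W v b) b := by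
  intro q
  rw [testBit_uOfMask]
  constructor
  · rintro ⟨x, -, h1, h2⟩
    exact ⟨x, h1, h2⟩
  · rintro ⟨x, h1, h2⟩
    refine ⟨x, ?_, h1, h2⟩
    by_contra hx
    rw [Nat.testBit_lt_two_pow (lt_of_lt_of_le hb
      (Nat.pow_le_pow_right (by norm_num) (not_lt.mp hx)))] at h1
    exact absurd h1 (by simp)

/-- the rows for the initial blocks -/
def rInit (W v : ℕ) : List ℕ → ℕ
  | [] => 0
  | b :: bl => rNext (rInit W v bl) (uOfMask W v b) bl.length b

theorem rInit_inv {W v : ℕ} (hW : 0 < W) : ∀ bl : List ℕ, bl.length ≤ W →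
    (∀ m ∈ bl, m < 2 ^ v) → RInv W v bl (rInit W v bl)
  | [], _, _ => by
    intro x _ i _
    simp [rInit]
  | b :: bl, h1, h2 => by
    rw [rInit]
    rw [List.length_cons] at h1
    exact RInv_next hW (by omega)
      (rInit_inv hW bl (by omega) (fun m hm => h2 m (List.mem_cons_of_mem _ hm)))
      (uOfMask_inv W v b (h2 b (List.mem_cons_self ..)))

/-- strictly decreasing below a bound -/
def decr : ℕ → List ℕ → Bool
  | _, [] => true
  | bound, x :: xs => Nat.blt x bound && decr x xs

theorem decr_spec : ∀ (bound : ℕ) (l : List ℕ), decr bound l = true →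
    (∀ x ∈ l, x < bound) ∧ l.Nodup
  | _, [], _ => ⟨fun _ h => absurd h (by simp), List.nodup_nil⟩
  | bound, x :: xs, h => by
    rw [decr, Bool.and_eq_true] at h
    have hx : x < bound := by
      have := h.1
      simpa [Nat.blt_eq] using this
    obtain ⟨h1, h2⟩ := decr_spec x xs h.2
    constructor
    · intro y hy
      rcases List.mem_cons.mp hy with rfl | hy'
      · exact hx
      · exact lt_trans (h1 y hy') hx
    · apply List.nodup_cons.mpr
      refine ⟨fun hmem => ?_, h2⟩
      exact absurd (h1 x hmem) (lt_irrefl x)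

/-- a valid entry of the list of `t`-sets -/
def ptsOK (v t : ℕ) (pts : List ℕ) : Bool := Nat.beq pts.length t && decr v pts

theorem ptsOK_spec (v t : ℕ) (pts : List ℕ) (h : ptsOK v t pts = true) :
    pts.length = t ∧ pts.Nodup ∧ ∀ x ∈ pts, x < v := by
  unfold ptsOK at h
  rw [Bool.and_eq_true] at h
  obtain ⟨h1, h2⟩ := decr_spec v pts h.2
  exact ⟨Nat.eq_of_beq_eq_true h.1, h2, h1⟩

/-- the search from the initial blocks -/
def srchInit (W v t k k0 N : ℕ) (B0L : List ℕ) (todo : List (List ℕ)) (bl : List ℕ) (nb : ℕ)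
    (certs : List ℕ) : Option (List ℕ) :=
  frc (bitmapOf B0L) (fun B0 => frc (rInit W v bl) (fun R => frc bl.length (fun n =>
    srchTop W v t k k0 B0 N todo R bl n nb certs)))

theorem srchInit_eq (W v t k k0 N : ℕ) (B0L : List ℕ) (todo : List (List ℕ)) (bl : List ℕ)
    (nb : ℕ) (certs : List ℕ) : srchInit W v t k k0 N B0L todo bl nb certs =
      srch W (fullC W) (repC W t) (rowM W) (Nat.add 32 (Nat.mul W (Nat.sub t 1))) v k0
        (bitmapOf B0L) N (Nat.sub k t) todo (rInit W v bl) bl bl.length nb certs := by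
  unfold srchInit
  rw [frc_eq, frc_eq, frc_eq, srchTop_eq]

theorem splitC_zero (m : ℕ) : splitC 0 m = 0 := by
  apply Nat.eq_of_testBit_eq
  intro i
  have h := testBit_splitC 0 m i
  rw [Nat.zero_testBit] at h ⊢
  by_contra hc
  exact absurd (h.mp (Bool.eq_true_of_not_eq_false hc)).1 (by simp)

section
variable {α : Type*} [Fintype α] [DecidableEq α]

/-- From a successful search: every Steiner system containing the initial blocks (for the
numbering `e`) is the standard system `B0L`, for a numbering agreeing with `e` on the top `k0`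
labels. -/
theorem std_of_search {W v t k k0 N nb0 : ℕ} {B0L bl0 certs : List ℕ} {todo : List (List ℕ)}
    (hsearch : (srchInit W v t k k0 N B0L todo bl0 nb0 certs).isSome = true)
    (hW : 0 < W) (ht : 0 < t) (htk : t ≤ k) (hv : v ≤ 32)
    (hWl : bl0.length + todo.length + 32 ≤ W) (hlen : B0L.length = N)
    (hN : N * Nat.choose k t = Nat.choose v t)
    (htodo : todo.all (ptsOK v t) = true)
    (hbl0 : decr (Nat.shiftLeft 1 v) bl0 = true)
    (hnb2 : bl0.all (fun m => Nat.beq (splitC nb0 m) nb0) = true)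
    (hnb3 : nb0 < 2 ^ (v - k0 - 1))
    {B : Set (Finset α)} (hB : IsSteinerSystem t k B) (e : α ≃ Fin v)
    (he : ∀ m ∈ bl0, ofMask e m ∈ B) :
    ∃ e' : α ≃ Fin v, agree k0 e e' ∧ ∀ b : Finset α, b ∈ B ↔ toMask e' b ∈ B0L := by
  have hcardα : Fintype.card α = v := by rw [Fintype.card_congr e, Fintype.card_fin]
  have hBN : B.ncard = N := by
    have h := Cfsg.Agent.H8.steiner_card hB
    rw [hcardα, ← hN] at h
    exact Nat.eq_of_mul_eq_mul_right (Nat.choose_pos htk) h
  obtain ⟨certs', hs⟩ := Option.isSome_iff_exists.mp hsearch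
  rw [srchInit_eq] at hs
  obtain ⟨hbl_lt, hbl_nd⟩ := decr_spec _ _ hbl0
  rw [shl_one] at hbl_lt
  have key : ∃ e' : α ≃ Fin v, agree k0 e e' ∧
      ∀ b ∈ B, tb (bitmapOf B0L) (toMask e' b) = true := by
    refine srch_sound hB W k0 (bitmapOf B0L) N hBN hW ht htk hv todo (rInit W v bl0) bl0
      bl0.length nb0 certs certs' hs (rInit_inv hW bl0 (by omega) hbl_lt) rfl hWl ?_ ?_ hbl_nd
      ?_ hbl_lt e he
    · intro m hm i hi
      have h1 := Nat.eq_of_beq_eq_true (List.all_eq_true.mp hnb2 m hm)
      rw [← h1, testBit_splitC] at hi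
      exact hi.2
    · intro i hi
      by_contra hlt
      have h1 : v - k0 - 1 ≤ i := by omega
      rw [Nat.testBit_lt_two_pow (lt_of_lt_of_le hnb3
        (Nat.pow_le_pow_right (by norm_num) h1))] at hi
      exact absurd hi (by simp)
    · intro pts hpts
      exact ptsOK_spec v t pts (List.all_eq_true.mp htodo pts hpts)
  obtain ⟨e', hag, he'⟩ := key
  have hfwd : ∀ b ∈ B, toMask e' b ∈ B0L := by
    intro b hb
    have := he' b hb
    rw [tb_bitmapOf] at this
    exact this
  refine ⟨e', hag, fun b => ⟨hfwd b, fun hb => ?_⟩⟩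
  have hsub : (toMask e') '' B ⊆ (↑B0L.toFinset : Set ℕ) := by
    rintro _ ⟨b', hb', rfl⟩
    simpa using hfwd b' hb'
  have hinj : Set.InjOn (toMask e') B := by
    intro b1 _ b2 _ h
    rw [← ofMask_toMask e' b1, h, ofMask_toMask]
  have hc1 : ((toMask e') '' B).ncard = N := by rw [hinj.ncard_image, hBN]
  have hc2 : (↑B0L.toFinset : Set ℕ).ncard ≤ N := by
    rw [Set.ncard_coe_finset, ← hlen]
    exact List.toFinset_card_le B0L
  have heq := Set.eq_of_subset_of_ncard_le hsub (by rw [hc1]; exact hc2) (Finset.finite_toSet _)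
  have hmem : toMask e' b ∈ (toMask e') '' B := by
    rw [heq]
    simpa using hb
  obtain ⟨b', hb', hbb⟩ := hmem
  have : b' = b := by rw [← ofMask_toMask e' b', hbb, ofMask_toMask]
  exact this ▸ hb'

/-- The one-point extensions of a unique Steiner system: a successful search from the blocks
through the top point shows that `S(t+1, k+1, v+1)` is the standard system `B0L`. -/
theorem std_ext {W v t k N : ℕ} {B0L prevL certs : List ℕ} {todo : List (List ℕ)}
    (hsearch : (srchInit W (v + 1) (t + 1) (k + 1) 0 N B0L todo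
      (prevL.map (fun m => Nat.lor m (Nat.shiftLeft 1 v))) 0 certs).isSome = true)
    (hW : 0 < W) (htk : t ≤ k) (hv : v + 1 ≤ 32)
    (hWl : prevL.length + todo.length + 32 ≤ W) (hlen : B0L.length = N)
    (hN : N * Nat.choose (k + 1) (t + 1) = Nat.choose (v + 1) (t + 1))
    (htodo : todo.all (ptsOK (v + 1) (t + 1)) = true)
    (hbl0 : decr (Nat.shiftLeft 1 (v + 1))
      (prevL.map (fun m => Nat.lor m (Nat.shiftLeft 1 v))) = true)
    (hprevlt : prevL.all (fun m => Nat.blt m (Nat.shiftLeft 1 v)) = true)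
    (hα : Fintype.card α = v + 1)
    {B : Set (Finset α)} (hB : IsSteinerSystem (t + 1) (k + 1) B)
    (hprev : ∀ (p : α) (B' : Set (Finset {a : α // a ≠ p})), IsSteinerSystem t k B' →
      ∃ e : {a : α // a ≠ p} ≃ Fin v, ∀ b, b ∈ B' ↔ toMask e b ∈ prevL) :
    ∃ e : α ≃ Fin (v + 1), ∀ b : Finset α, b ∈ B ↔ toMask e b ∈ B0L := by
  obtain ⟨p⟩ : Nonempty α := Fintype.card_pos_iff.mp (by omega)
  have hder := Cfsg.Agent.H8.steiner_derived hB p
  obtain ⟨e₀, he₀⟩ := hprev p _ hder
  let e : α ≃ Fin (v + 1) :=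
    (Equiv.optionSubtypeNe p).symm.trans
      ((Equiv.optionCongr e₀).trans (finSuccEquivLast (n := v)).symm)
  have hep : e p = Fin.last v := by
    show (finSuccEquivLast (n := v)).symm
      ((Equiv.optionCongr e₀) ((Equiv.optionSubtypeNe p).symm p)) = _
    rw [Equiv.optionSubtypeNe_symm_self]
    rfl
  have hea : ∀ (a : α) (h : a ≠ p), e a = (e₀ ⟨a, h⟩).castSucc := by
    intro a h
    show (finSuccEquivLast (n := v)).symm
      ((Equiv.optionCongr e₀) ((Equiv.optionSubtypeNe p).symm a)) = _
    rw [Equiv.optionSubtypeNe_symm_of_ne h]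
    exact finSuccEquivLast_symm_some _
  have hprevlt' : ∀ m ∈ prevL, m < 2 ^ v := by
    intro m hm
    have := List.all_eq_true.mp hprevlt m hm
    rw [shl_one] at this
    simpa [Nat.blt_eq] using this
  have he : ∀ m ∈ prevL.map (fun m => Nat.lor m (Nat.shiftLeft 1 v)), ofMask e m ∈ B := by
    intro m hm
    obtain ⟨m', hm', rfl⟩ := List.mem_map.mp hm
    have hm'lt := hprevlt' m' hm'
    have h1 : toMask e₀ (ofMask e₀ m') = m' := by
      apply ofMask_inj e₀ (toMask_lt e₀ _) hm'lt
      rw [ofMask_toMask]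
    have h2 := (he₀ (ofMask e₀ m')).mpr (by rw [h1]; exact hm')
    obtain ⟨b, hbB, hpb, hbeq⟩ := h2
    have h3 : ofMask e (Nat.lor m' (Nat.shiftLeft 1 v)) = b := by
      ext a
      rw [mem_ofMask, shl_one]
      show (m' ||| 2 ^ v).testBit (e a) = true ↔ _
      rw [Nat.testBit_or, Nat.testBit_two_pow, Bool.or_eq_true, decide_eq_true_eq]
      by_cases ha : a = p
      · rw [ha, hep]
        simp [hpb]
      · rw [hea a ha]
        have h4 : (⟨a, ha⟩ : {a : α // a ≠ p}) ∈ ofMask e₀ m' ↔ a ∈ b := by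
          rw [hbeq, Finset.mem_subtype]
        rw [mem_ofMask] at h4
        have h5 : v ≠ ((e₀ ⟨a, ha⟩).castSucc : Fin (v + 1)).val := by
          have := (e₀ ⟨a, ha⟩).isLt
          simp only [Fin.val_castSucc]
          omega
        simp only [Fin.val_castSucc] at h5 ⊢
        rw [← h4]
        constructor
        · rintro (h | h)
          · exact h
          · exact absurd h h5
        · intro h
          exact Or.inl h
    rw [h3]
    exact hbB
  have hWl' : (prevL.map (fun m => Nat.lor m (Nat.shiftLeft 1 v))).length + todo.length + 32 ≤ W := by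
    rw [List.length_map]
    exact hWl
  obtain ⟨e', -, he'⟩ := std_of_search (k0 := 0) (nb0 := 0) hsearch hW (Nat.succ_pos t)
    (Nat.succ_le_succ htk) hv hWl' hlen hN htodo hbl0
    (List.all_eq_true.mpr (fun m _ => by rw [splitC_zero]; rfl)) (Nat.two_pow_pos _) hB e he
  exact ⟨e', he'⟩

end

end Cfsg.Agent.H9.Stg
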