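import Cfsg.Agent.H9.Stg
import Cfsg.Agent.H9.StcSound

/-!
# Soundness of the general Steiner system search `Stg.srch` (helper9)
-/

set_option autoImplicit false
set_option linter.unusedSectionVars false

namespace Cfsg.Agent.H9.Stg

open Cfsg Cfsg.Agent.H9 Cfsg.Agent.H34 Cfsg.Agent.H9.Stc

theorem popc_zero' (v : ℕ) : popc v 0 = 0 := by
  rw [← card_ofMask (Equiv.refl (Fin v)), ofMask_zero, Finset.card_empty]

theorem popc_or_pow (v P x : ℕ) (hx : x < v) (hP : P.testBit x = false) :
    popc v (P ||| 2 ^ x) = popc v P + 1 := by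
  rw [← card_ofMask (Equiv.refl (Fin v)), ← card_ofMask (Equiv.refl (Fin v)), ofMask_or]
  have h2 : ofMask (Equiv.refl (Fin v)) (2 ^ x) = {⟨x, hx⟩} := by
    have := ofMask_two_pow (Equiv.refl (Fin v)) ⟨x, hx⟩
    simpa using this
  rw [h2, Finset.card_union_of_disjoint, Finset.card_singleton]
  rw [Finset.disjoint_singleton_right, mem_ofMask]
  simpa using hP

theorem popc_orPts (v : ℕ) : ∀ (pts : List ℕ) (P : ℕ), (∀ x ∈ pts, x < v) → pts.Nodup →
    (∀ x ∈ pts, P.testBit x = false) → popc v (orPts pts P) = popc v P + pts.length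
  | [], P, _, _, _ => rfl
  | x :: xs, P, h1, h2, h3 => by
    have hx : x < v := h1 x (List.mem_cons_self ..)
    have hPx : P.testBit x = false := h3 x (List.mem_cons_self ..)
    rw [orPts, popc_orPts v xs _ (fun y hy => h1 y (List.mem_cons_of_mem _ hy))
      (List.nodup_cons.mp h2).2, popc_or_pow v P x hx hPx, List.length_cons]
    · omega
    · intro y hy
      rw [Nat.testBit_or, Nat.testBit_two_pow, h3 y (List.mem_cons_of_mem _ hy)]
      have : x ≠ y := by
        intro hxy
        rw [hxy] at h2
        exact (List.nodup_cons.mp h2).1 hy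
      simp [this]

section
variable {α : Type*} [Fintype α] [DecidableEq α] {v : ℕ}

theorem cnt_eq_card' (e : α ≃ Fin v) (P m : ℕ) :
    cnt v P m = (ofMask e P ∩ ofMask e m).card := by
  unfold cnt
  rw [← card_ofMask e, ofMask_and]

end

/-- descending along the points of the true block -/
theorem ext_reach {W v t : ℕ} {bl : List ℕ} {R nb s b : ℕ}
    (final : ℕ → ℕ → Option (List ℕ) → Option (List ℕ))
    (hW : 0 < W) (ht : 0 < t) (hn : bl.length + 32 ≤ W) (hR : RInv W v bl R) (hv : v ≤ 32)
    (hsb : ∀ y, s.testBit y = true → b.testBit y = true) (hb : b < 2 ^ v)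
    (hs_ok : okCell s nb = true) (hb_ok : okCell b nb = true)
    (hcnt : ∀ i, i < bl.length → cnt v b (bget bl i) < t) :
    ∀ (j x Z U : ℕ) (acc c : List ℕ) (P : ℕ),
      ext W (fullC W) (repC W t) (rowM W) (Nat.add 32 (Nat.mul W (Nat.sub t 1))) R nb final
        j x Z U (some acc) = some c →
      ZInv W v t bl Z P → UInv W U P →
      (∀ y, P.testBit y = true ↔ s.testBit y = true ∨ (b.testBit y = true ∧ x ≤ y)) →
      popc x (b ^^^ s) = j → x ≤ v →
      ∃ Zb Ub a1 a2, ZInv W v t bl Zb b ∧ UInv W Ub b ∧ final Zb Ub (some a1) = some a2 := by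
  intro j
  induction j with
  | zero =>
    intro x Z U acc c P h hZ hU hP hpop hxv
    have hPb : P = b := by
      apply Nat.eq_of_testBit_eq
      intro y
      apply Bool.eq_iff_iff.mpr
      rw [hP]
      constructor
      · rintro (h1 | ⟨h1, -⟩)
        · exact hsb y h1
        · exact h1
      · intro h1
        by_cases hy : x ≤ y
        · exact Or.inr ⟨h1, hy⟩
        · left
          have := testBit_of_popc_zero x _ hpop y (not_le.mp hy)
          rw [Nat.testBit_xor, h1] at this
          cases hsy : s.testBit y
          · rw [hsy] at this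
            simp at this
          · rfl
    rw [hPb] at hZ hU
    rw [ext] at h
    exact ⟨Z, U, acc, c, hZ, hU, h⟩
  | succ j ih =>
    intro x Z U acc c P h hZ hU hP hpop hxv
    rw [ext] at h
    obtain ⟨x', hx'x, hbx', htop, hpop'⟩ := exists_top_of_popc x _ j hpop
    have hbx : b.testBit x' = true ∧ s.testBit x' = false := by
      rw [Nat.testBit_xor] at hbx'
      cases hs' : s.testBit x'
      · cases hb' : b.testBit x'
        · rw [hs', hb'] at hbx'
          simp at hbx'
        · exact ⟨rfl, rfl⟩
      · have := hsb x' hs'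
        rw [hs', this] at hbx'
        simp at hbx'
    have hx'v : x' < v := by omega
    have hPx' : P.testBit x' = false := by
      by_contra hc
      have hc' : P.testBit x' = true := by simpa using hc
      rcases (hP x').mp hc' with h1 | ⟨-, h1⟩
      · rw [hbx.2] at h1
        exact absurd h1 (by simp)
      · omega
    have hZ' := addPt_inv hW hn hR hZ hx'v hv hPx'
    have hU' : UInv W (Nat.lor U (Nat.shiftLeft 1 (Nat.add 32 (Nat.mul W x')))) (P ||| 2 ^ x') :=
      UInv_add hU
    have hP' : ∀ y, (P ||| 2 ^ x').testBit y = true ↔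
        s.testBit y = true ∨ (b.testBit y = true ∧ x' ≤ y) := by
      intro y
      rw [Nat.testBit_or, Nat.testBit_two_pow, Bool.or_eq_true, decide_eq_true_eq, hP]
      constructor
      · rintro ((h1 | ⟨h1, h2⟩) | h1)
        · exact Or.inl h1
        · exact Or.inr ⟨h1, by omega⟩
        · exact Or.inr ⟨by rw [← h1]; exact hbx.1, by omega⟩
      · rintro (h1 | ⟨h1, h2⟩)
        · exact Or.inl (Or.inl h1)
        · by_cases hy : x ≤ y
          · exact Or.inl (Or.inr ⟨h1, hy⟩)
          · by_cases hy' : x' = y
            · exact Or.inr hy'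
            · left; left
              have := htop y (by omega) (by omega)
              rw [Nat.testBit_xor, h1] at this
              cases hsy : s.testBit y
              · rw [hsy] at this
                simp at this
              · rfl
    have hP'b : ∀ y, (P ||| 2 ^ x').testBit y = true → b.testBit y = true := by
      intro y hy
      rcases (hP' y).mp hy with h1 | ⟨h1, -⟩
      · exact hsb y h1
      · exact h1
    have hP'lt : P ||| 2 ^ x' < 2 ^ 32 := by
      apply Nat.lt_pow_two_of_testBit
      intro i hi
      by_contra hc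
      have hc' : (P ||| 2 ^ x').testBit i = true := Bool.eq_true_of_not_eq_false hc
      have h1 := hP'b i hc'
      rw [Nat.testBit_lt_two_pow (lt_of_lt_of_le hb
        (Nat.pow_le_pow_right (by norm_num) (by omega)))] at h1
      exact absurd h1 (by simp)
    have c1 : tb Z x' = false := by
      rw [tb_eq, hZ.1 x' (by omega)]
      exact hPx'
    have c2 : Nat.beq (Nat.shiftRight (addPt W (fullC W) (repC W t) Z (rowOf W (rowM W) R x') x')
        (Nat.add 32 (Nat.mul W (Nat.sub t 1)))) 0 = true := by
      rw [bad_iff hW ht (by omega) hZ']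
      intro i hi
      exact lt_of_le_of_lt (cnt_mono v _ hP'b) (hcnt i hi)
    have c3 : okCell (Nat.land (addPt W (fullC W) (repC W t) Z (rowOf W (rowM W) R x') x')
        4294967295) nb = true := by
      rw [land_mask32 hZ' hP'lt, okCell_iff]
      intro i h1 h2
      rw [hP'] at h1 ⊢
      rcases h1 with h1 | ⟨h1, h3⟩
      · exact Or.inl ((okCell_iff s nb).mp hs_ok i h1 h2)
      · exact Or.inr ⟨(okCell_iff b nb).mp hb_ok i h1 h2, by omega⟩
    obtain ⟨c1', c2', hrec⟩ := ptsLoop_some _ _ _ _ _ _ _ _ Z U x (some acc) c h x' hx'x c1 c2 c3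
    exact ih x' _ _ c1' c2' (P ||| 2 ^ x') hrec hZ' hU' hP' hpop' (by omega)

section
variable {α : Type*} [Fintype α] [DecidableEq α] {v : ℕ}

/-- Soundness of the search. -/
theorem srch_sound {t k : ℕ} {B : Set (Finset α)} (hB : IsSteinerSystem t k B)
    (W k0 B0 N : ℕ) (hN : B.ncard = N) (hW : 0 < W) (ht : 0 < t) (htk : t ≤ k) (hv : v ≤ 32) :
    ∀ (todo : List (List ℕ)) (R : ℕ) (bl : List ℕ) (n nb : ℕ) (certs certs' : List ℕ),
      srch W (fullC W) (repC W t) (rowM W) (Nat.add 32 (Nat.mul W (Nat.sub t 1))) v k0 B0 N
        (Nat.sub k t) todo R bl n nb certs = some certs' →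
      RInv W v bl R → n = bl.length → bl.length + todo.length + 32 ≤ W →
      (∀ m ∈ bl, ∀ i, nb.testBit i = true → m.testBit i = m.testBit (i + 1)) →
      (∀ i, nb.testBit i = true → i + 1 + k0 < v) →
      bl.Nodup →
      (∀ pts ∈ todo, pts.length = t ∧ pts.Nodup ∧ ∀ x ∈ pts, x < v) →
      (∀ m ∈ bl, m < 2 ^ v) →
      ∀ e : α ≃ Fin v, (∀ m ∈ bl, ofMask e m ∈ B) →
        ∃ e' : α ≃ Fin v, agree k0 e e' ∧ ∀ b ∈ B, tb B0 (toMask e' b) = true := by
  intro todo
  induction todo with
  | nil =>
    intro R bl n nb certs certs' hs hR hnl hWl H2 H3 H7 H5 H6 e he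
    cases certs with
    | nil => simp [srch] at hs
    | cons c cs =>
      have hleaf : leafOK v k0 B0 N c bl = true := by
        by_contra hc
        have hc' : leafOK v k0 B0 N c bl = false := by simpa using hc
        simp [srch, hc'] at hs
      exact leaf_sound B e k0 B0 N c bl hleaf hN H7 H6 he
  | cons pts rest ih =>
    intro R bl n nb certs certs' hs hR hnl hWl H2 H3 H7 H5 H6 e he
    rw [srch, frc_eq] at hs
    obtain ⟨hlen, hnd, hlt⟩ := H5 pts (List.mem_cons_self ..)
    have H5' : ∀ p' ∈ rest, p'.length = t ∧ p'.Nodup ∧ ∀ x ∈ p', x < v :=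
      fun p' hp' => H5 p' (List.mem_cons_of_mem _ hp')
    rw [List.length_cons] at hWl
    have hZ : ZInv W v t bl (addPts W (fullC W) (repC W t) (rowM W) R pts 0) (orPts pts 0) :=
      addPts_inv hW (by omega) hR hv pts 0 0 (ZInv_zero W v t bl) hlt hnd
        (fun x _ => Nat.zero_testBit x)
    have hU0 : UInv W (uPts W pts 0) (orPts pts 0) := uPts_inv pts 0 0 (UInv_zero W)
    have hs_pc : popc v (orPts pts 0) = t := by
      rw [popc_orPts v pts 0 hlt hnd (fun x _ => Nat.zero_testBit x), popc_zero', hlen,
        Nat.zero_add]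
    have hs_bits : ∀ y, (orPts pts 0).testBit y = true → y < v := by
      intro y hy
      rw [testBit_orPts] at hy
      rcases hy with h | h
      · simp at h
      · exact hlt y h
    generalize orPts pts 0 = s at hZ hU0 hs_pc hs_bits
    have hs_lt : s < 2 ^ v := Nat.lt_pow_two_of_testBit _ (fun i hi => by
      by_contra hc
      have := hs_bits i (by simpa using hc)
      omega)
    have hs_lt32 : s < 2 ^ 32 := lt_of_lt_of_le hs_lt (Nat.pow_le_pow_right (by norm_num) hv)
    cases hbad : Nat.beq (Nat.shiftRight (addPts W (fullC W) (repC W t) (rowM W) R pts 0)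
        (Nat.add 32 (Nat.mul W (Nat.sub t 1)))) 0 with
    | false =>
      rw [hbad, cond_false] at hs
      exact ih R bl n nb certs certs' hs hR hnl (by omega) H2 H3 H7 H5' H6 e he
    | true =>
      rw [hbad, cond_true, land_mask32 hZ hs_lt32] at hs
      have hcs := (bad_iff hW ht (by omega) hZ).mp hbad
      cases hok : okCell s nb with
      | false =>
        rw [hok, cond_false] at hs
        exact absurd hs (by simp)
      | true =>
        rw [hok, cond_true] at hs
        have hcardS : (ofMask e s).card = t := by rw [card_ofMask, hs_pc]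
        obtain ⟨β, ⟨hβB, hSβ⟩, -⟩ := hB.2 (ofMask e s) hcardS
        obtain ⟨e₁, hag, hbl₁, hs₁, hokβ⟩ := cell_wlog k0 nb s bl H2 H3 hok e β hSβ
        have he₁ : ∀ m ∈ bl, ofMask e₁ m ∈ B := fun m hm => by
          rw [hbl₁ m hm]
          exact he m hm
        have hSβ₁ : ofMask e₁ s ⊆ β := by
          rw [hs₁]
          exact hSβ
        have hcardS₁ : (ofMask e₁ s).card = t := by rw [card_ofMask, hs_pc]
        have hcardβ : β.card = k := hB.1 β hβB
        have hb_lt : toMask e₁ β < 2 ^ v := toMask_lt e₁ β
        have hofb : ofMask e₁ (toMask e₁ β) = β := ofMask_toMask e₁ β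
        have hsb : ∀ y, s.testBit y = true → (toMask e₁ β).testBit y = true := by
          intro y hy
          have hyv := hs_bits y hy
          have h1 : e₁.symm ⟨y, hyv⟩ ∈ ofMask e₁ s := by
            rw [mem_ofMask, Equiv.apply_symm_apply]
            exact hy
          have h2 := (testBit_toMask e₁ β (e₁.symm ⟨y, hyv⟩)).mpr (hSβ₁ h1)
          rw [Equiv.apply_symm_apply] at h2
          exact h2
        have hcnt : ∀ i, i < bl.length → cnt v (toMask e₁ β) (bget bl i) < t := by
          intro i hi
          rw [cnt_eq_card' e₁, hofb]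
          apply Cfsg.Agent.H8.inter_card_le_of_ne hB hβB (he₁ _ (bget_mem hi))
          intro heq
          have h1 := hcs i hi
          rw [cnt_eq_card' e₁, ← heq, Finset.inter_eq_left.mpr hSβ₁, hcardS₁] at h1
          exact absurd h1 (lt_irrefl t)
        have hpop : popc v (toMask e₁ β ^^^ s) = Nat.sub k t := by
          rw [← card_ofMask e₁, ofMask_xor, hofb]
          have h1 : symmDiff β (ofMask e₁ s) = β \ ofMask e₁ s := by
            rw [symmDiff_def, Finset.sdiff_eq_empty_iff_subset.mpr hSβ₁, Finset.sup_eq_union,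
              Finset.union_empty]
          rw [h1, Finset.card_sdiff_of_subset hSβ₁, hcardβ, hcardS₁]
          rfl
        have hb_lt32 : toMask e₁ β < 2 ^ 32 :=
          lt_of_lt_of_le hb_lt (Nat.pow_le_pow_right (by norm_num) hv)
        obtain ⟨Zb, Ub, a1, a2, hZb, hUb, hfin⟩ := ext_reach _ hW ht (by omega) hR hv hsb hb_lt
          hok hokβ hcnt (Nat.sub k t) v _ _ certs certs' s hs hZ hU0
          (fun y => by
            constructor
            · intro h
              exact Or.inl h
            · rintro (h | ⟨h, h'⟩)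
              · exact h
              · rw [Nat.testBit_lt_two_pow (lt_of_lt_of_le hb_lt
                  (Nat.pow_le_pow_right (by norm_num) h'))] at h
                exact absurd h (by simp))
          hpop le_rfl
        simp only [finalStep, frc_eq] at hfin
        rw [land_mask32 hZb hb_lt32] at hfin
        have key : ∃ e' : α ≃ Fin v, agree k0 e₁ e' ∧ ∀ b ∈ B, tb B0 (toMask e' b) = true := by
          refine ih _ _ _ _ a1 a2 hfin ?_ ?_ ?_ ?_ ?_ ?_ H5' ?_ e₁ ?_
          · rw [hnl]
            exact RInv_next hW (by omega) hR hUb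
          · rw [hnl, List.length_cons]
          · rw [List.length_cons]
            omega
          · intro m hm i hi
            rw [testBit_splitC] at hi
            rcases List.mem_cons.mp hm with rfl | hm'
            · exact hi.2
            · exact H2 m hm' i hi.1
          · intro i hi
            rw [testBit_splitC] at hi
            exact H3 i hi.1
          · apply List.nodup_cons.mpr
            refine ⟨?_, H7⟩
            intro hm
            obtain ⟨i, hi, hbi⟩ := exists_bget_of_mem hm
            have h1 := hcnt i hi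
            rw [hbi, cnt_eq_card' e₁, Finset.inter_self, hofb, hcardβ] at h1
            omega
          · intro m hm
            rcases List.mem_cons.mp hm with rfl | hm'
            · exact hb_lt
            · exact H6 m hm'
          · intro m hm
            rcases List.mem_cons.mp hm with rfl | hm'
            · rw [hofb]
              exact hβB
            · exact he₁ m hm'
        obtain ⟨e', hag', hB0⟩ := key
        exact ⟨e', agree_trans hag hag', hB0⟩

end

end Cfsg.Agent.H9.Stg
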