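import Cfsg.Agent.H9.StgExt

/-!
# Searches with several completions (helper9)

`sub_of_search`: a successful search that fixes all labels shows that the blocks of the system
(for the given numbering) lie in the list `B0L`.
`dich_of_search`: if the search branches only at its first `t`-set, into two blocks, and each
branch has a unique completion, then the system is one of the two completions.
-/

set_option autoImplicit false
set_option linter.unusedSectionVars false

namespace Cfsg.Agent.H9.Stg

open Cfsg Cfsg.Agent.H9 Cfsg.Agent.H34 Cfsg.Agent.H9.Stc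
open scoped Pointwise

section
variable {α : Type*} [Fintype α] [DecidableEq α]

theorem eq_of_agree_all {v : ℕ} {e e' : α ≃ Fin v} (h : agree v e e') : e' = e := by
  apply Equiv.ext
  intro a
  exact h a (by omega)

/-- the blocks lie in `B0L`, for the given numbering -/
theorem sub_of_search {W v t k N : ℕ} {B0L bl0 certs : List ℕ} {todo : List (List ℕ)}
    (hsearch : (srchInit W v t k v N B0L todo bl0 0 certs).isSome = true)
    (hW : 0 < W) (ht : 0 < t) (htk : t ≤ k) (hv : v ≤ 32)
    (hWl : bl0.length + todo.length + 32 ≤ W)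
    (hN : N * Nat.choose k t = Nat.choose v t)
    (htodo : todo.all (ptsOK v t) = true)
    (hbl0 : decr (Nat.shiftLeft 1 v) bl0 = true)
    {B : Set (Finset α)} (hB : IsSteinerSystem t k B) (e : α ≃ Fin v)
    (he : ∀ m ∈ bl0, ofMask e m ∈ B) :
    ∀ b ∈ B, toMask e b ∈ B0L := by
  have hcardα : Fintype.card α = v := by rw [Fintype.card_congr e, Fintype.card_fin]
  have hBN : B.ncard = N := by
    have h := Cfsg.Agent.H8.steiner_card hB
    rw [hcardα, ← hN] at h
    exact Nat.eq_of_mul_eq_mul_right (Nat.choose_pos htk) h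
  obtain ⟨certs', hs⟩ := Option.isSome_iff_exists.mp hsearch
  rw [srchInit_eq] at hs
  obtain ⟨hbl_lt, hbl_nd⟩ := decr_spec _ _ hbl0
  rw [shl_one] at hbl_lt
  have key : ∃ e' : α ≃ Fin v, agree v e e' ∧
      ∀ b ∈ B, tb (bitmapOf B0L) (toMask e' b) = true := by
    refine srch_sound hB W v (bitmapOf B0L) N hBN hW ht htk hv todo (rInit W v bl0) bl0
      bl0.length 0 certs certs' hs (rInit_inv hW bl0 (by omega) hbl_lt) rfl hWl ?_ ?_ hbl_nd
      ?_ hbl_lt e he
    · intro m _ i hi
      rw [Nat.zero_testBit] at hi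
      exact absurd hi (by simp)
    · intro i hi
      rw [Nat.zero_testBit] at hi
      exact absurd hi (by simp)
    · intro pts hpts
      exact ptsOK_spec v t pts (List.all_eq_true.mp htodo pts hpts)
  obtain ⟨e', hag, he'⟩ := key
  rw [eq_of_agree_all hag] at he'
  intro b hb
  have := he' b hb
  rw [tb_bitmapOf] at this
  exact this

/-- counting: a numbering carrying the blocks into a list of the right length is standard -/
theorem std_of_fwd {v : ℕ} {B : Set (Finset α)} {L : List ℕ} (e : α ≃ Fin v)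
    (hfwd : ∀ b ∈ B, toMask e b ∈ L) (hcard : L.length ≤ B.ncard) :
    ∀ b : Finset α, b ∈ B ↔ toMask e b ∈ L := by
  refine fun b => ⟨hfwd b, fun hb => ?_⟩
  have hsub : (toMask e) '' B ⊆ (↑L.toFinset : Set ℕ) := by
    rintro _ ⟨b', hb', rfl⟩
    simpa using hfwd b' hb'
  have hinj : Set.InjOn (toMask e) B := by
    intro b1 _ b2 _ h
    rw [← ofMask_toMask e b1, h, ofMask_toMask]
  have hc1 : ((toMask e) '' B).ncard = B.ncard := hinj.ncard_image
  have hc2 : (↑L.toFinset : Set ℕ).ncard ≤ B.ncard := by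
    rw [Set.ncard_coe_finset]
    exact le_trans (List.toFinset_card_le L) hcard
  have heq := Set.eq_of_subset_of_ncard_le hsub (by rw [hc1]; exact hc2) (Finset.finite_toSet _)
  have hmem : toMask e b ∈ (toMask e) '' B := by
    rw [heq]
    simpa using hb
  obtain ⟨b', hb', hbb⟩ := hmem
  have : b' = b := by rw [← ofMask_toMask e b', hbb, ofMask_toMask]
  exact this ▸ hb'

/-- the mask of a set for a numbering followed by a packed permutation -/
theorem toMask_trans_perm {v : ℕ} (e : α ≃ Fin v) (σ : Equiv.Perm (Fin v)) (c : ℕ)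
    (hσ : ∀ i : Fin v, (σ i).val = lk c i.val) (b : Finset α) :
    toMask (e.trans σ) b = imgV v c (toMask e b) := by
  apply Nat.eq_of_testBit_eq
  intro j
  apply Bool.eq_iff_iff.mpr
  rw [testBit_toMask', testBit_imgV]
  constructor
  · rintro ⟨p, hp, hpj⟩
    refine ⟨(e p).val, (e p).isLt, (testBit_toMask e b p).mpr hp, ?_⟩
    rw [← hσ]
    exact hpj
  · rintro ⟨i, hi, hbi, hij⟩
    obtain ⟨p, hp, hpi⟩ := (testBit_toMask' e b i).mp hbi
    refine ⟨p, hp, ?_⟩
    show (σ (e p)).val = j
    rw [hσ, hpi]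
    exact hij

theorem toMask_ofMask {v : ℕ} (e : α ≃ Fin v) {m : ℕ} (hm : m < 2 ^ v) :
    toMask e (ofMask e m) = m := by
  apply ofMask_inj e (toMask_lt e _) hm
  rw [ofMask_toMask]

/-- the blocks through `p` for the extended numbering -/
theorem ofMask_extNum_mem {v : ℕ} {prevL : List ℕ}
    (hprevlt : prevL.all (fun m => Nat.blt m (Nat.shiftLeft 1 v)) = true)
    {B : Set (Finset α)} (p : α) (e₀ : {a : α // a ≠ p} ≃ Fin v)
    (he₀ : ∀ b', b' ∈ derived B p ↔ toMask e₀ b' ∈ prevL) :
    ∀ m ∈ prevL.map (fun m => Nat.lor m (Nat.shiftLeft 1 v)), ofMask (extNum p e₀) m ∈ B := by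
  have hep := extNum_self p e₀
  have hea : ∀ (a : α) (h : a ≠ p), extNum p e₀ a = (e₀ ⟨a, h⟩).castSucc :=
    fun a h => extNum_of_ne p e₀ h
  have hprevlt' : ∀ m ∈ prevL, m < 2 ^ v := by
    intro m hm
    have := List.all_eq_true.mp hprevlt m hm
    rw [shl_one] at this
    simpa [Nat.blt_eq] using this
  intro m hm
  obtain ⟨m', hm', rfl⟩ := List.mem_map.mp hm
  have hm'lt := hprevlt' m' hm'
  have h1 : toMask e₀ (ofMask e₀ m') = m' := toMask_ofMask e₀ hm'lt
  have h2 := (he₀ (ofMask e₀ m')).mpr (by rw [h1]; exact hm')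
  obtain ⟨b, hbB, hpb, hbeq⟩ := h2
  have h3 : ofMask (extNum p e₀) (Nat.lor m' (Nat.shiftLeft 1 v)) = b := by
    ext a
    rw [mem_ofMask, shl_one]
    show (m' ||| 2 ^ v).testBit (extNum p e₀ a) = true ↔ _
    rw [Nat.testBit_or, Nat.testBit_two_pow, Bool.or_eq_true, decide_eq_true_eq]
    by_cases ha : a = p
    · rw [ha, hep]
      simp [hpb]
    · rw [hea a ha]
      have h4 : (⟨a, ha⟩ : {a : α // a ≠ p}) ∈ ofMask e₀ m' ↔ a ∈ b := by
        rw [hbeq, Finset.mem_subtype]
      rw [mem_ofMask] at h4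
      have h5 : v ≠ ((e₀ ⟨a, ha⟩).castSucc : Fin (v + 1)).val := by
        have := (e₀ ⟨a, ha⟩).isLt
        simp only [Fin.val_castSucc]
        omega
      simp only [Fin.val_castSucc] at h5 ⊢
      rw [← h4]
      constructor
      · rintro (h | h)
        · exact h
        · exact absurd h h5
      · intro h
        exact Or.inl h
  rw [h3]
  exact hbB

/-- a search branching only at its first `t`-set, into two blocks -/
theorem dich_of_search {W v t k N bA bB : ℕ} {LU LA LB bl0 certs0 certsA certsB T : List ℕ}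
    {todo : List (List ℕ)}
    (h0 : (srchInit W v t k v N LU todo bl0 0 certs0).isSome = true)
    (hA : (srchInit W v t k v N LA todo (bl0 ++ [bA]) 0 certsA).isSome = true)
    (hB : (srchInit W v t k v N LB todo (bl0 ++ [bB]) 0 certsB).isSome = true)
    (hW : 0 < W) (ht : 0 < t) (htk : t ≤ k) (hv : v ≤ 32)
    (hWl : bl0.length + 1 + todo.length + 32 ≤ W)
    (hlenA : LA.length = N) (hlenB : LB.length = N)
    (hN : N * Nat.choose k t = Nat.choose v t)
    (htodo : todo.all (ptsOK v t) = true)
    (hbl0 : decr (Nat.shiftLeft 1 v) bl0 = true)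
    (hblA : decr (Nat.shiftLeft 1 v) (bl0 ++ [bA]) = true)
    (hblB : decr (Nat.shiftLeft 1 v) (bl0 ++ [bB]) = true)
    (hT : ptsOK v t T = true)
    (hsel : LU.all (fun m => !(Nat.beq (Nat.land m (orPts T 0)) (orPts T 0)) || (Nat.beq m bA ||
      Nat.beq m bB)) = true)
    {X : Set (Finset α)} (hX : IsSteinerSystem t k X) (e : α ≃ Fin v)
    (he : ∀ m ∈ bl0, ofMask e m ∈ X) :
    (∀ b : Finset α, b ∈ X ↔ toMask e b ∈ LA) ∨ (∀ b : Finset α, b ∈ X ↔ toMask e b ∈ LB) := by
  have hsub := sub_of_search h0 hW ht htk hv (by omega) hN htodo hbl0 hX e he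
  obtain ⟨hTlen, hTnd, hTlt⟩ := ptsOK_spec v t T hT
  have hs_pc : popc v (orPts T 0) = t := by
    rw [popc_orPts v T 0 hTlt hTnd (fun x _ => Nat.zero_testBit x), popc_zero', hTlen,
      Nat.zero_add]
  have hcardS : (ofMask e (orPts T 0)).card = t := by rw [card_ofMask, hs_pc]
  obtain ⟨β, ⟨hβX, hSβ⟩, -⟩ := hX.2 _ hcardS
  have hm := hsub β hβX
  have hland : Nat.land (toMask e β) (orPts T 0) = orPts T 0 := by
    show toMask e β &&& orPts T 0 = orPts T 0
    apply Nat.eq_of_testBit_eq
    intro y
    rw [Nat.testBit_and]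
    cases hy : (orPts T 0).testBit y
    · simp
    · have hyv : y < v := by
        rw [testBit_orPts] at hy
        rcases hy with h | h
        · simp at h
        · exact hTlt y h
      have h1 : e.symm ⟨y, hyv⟩ ∈ ofMask e (orPts T 0) := by
        rw [mem_ofMask, Equiv.apply_symm_apply]
        exact hy
      have h2 := (testBit_toMask e β (e.symm ⟨y, hyv⟩)).mpr (hSβ h1)
      rw [Equiv.apply_symm_apply] at h2
      simp only at h2
      rw [h2]
      rfl
  have hc := List.all_eq_true.mp hsel _ hm
  rw [hland, Nat.beq_refl] at hc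
  simp only [Bool.not_true, Bool.false_or, Bool.or_eq_true] at hc
  have hβ : ofMask e (toMask e β) = β := ofMask_toMask e β
  rcases hc with h1 | h1
  · left
    have hbA : toMask e β = bA := Nat.eq_of_beq_eq_true h1
    have he' : ∀ m ∈ bl0 ++ [bA], ofMask e m ∈ X := by
      intro m hm'
      rcases List.mem_append.mp hm' with h2 | h2
      · exact he m h2
      · rw [List.mem_singleton] at h2
        rw [h2, ← hbA, hβ]
        exact hβX
    obtain ⟨e', hag, hstd⟩ := std_of_search (k0 := v) (nb0 := 0) hA hW ht htk hv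
      (by rw [List.length_append, List.length_singleton]; exact hWl) hlenA hN htodo hblA
      (List.all_eq_true.mpr (fun m _ => by rw [splitC_zero]; rfl)) (Nat.two_pow_pos _) hX e he'
    rw [eq_of_agree_all hag] at hstd
    exact hstd
  · right
    have hbB : toMask e β = bB := Nat.eq_of_beq_eq_true h1
    have he' : ∀ m ∈ bl0 ++ [bB], ofMask e m ∈ X := by
      intro m hm'
      rcases List.mem_append.mp hm' with h2 | h2
      · exact he m h2
      · rw [List.mem_singleton] at h2
        rw [h2, ← hbB, hβ]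
        exact hβX
    obtain ⟨e', hag, hstd⟩ := std_of_search (k0 := v) (nb0 := 0) hB hW ht htk hv
      (by rw [List.length_append, List.length_singleton]; exact hWl) hlenB hN htodo hblB
      (List.all_eq_true.mpr (fun m _ => by rw [splitC_zero]; rfl)) (Nat.two_pow_pos _) hX e he'
    rw [eq_of_agree_all hag] at hstd
    exact hstd

end

end Cfsg.Agent.H9.Stg
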